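import Mathlib
import Cfsg.Agent.Uni.Basic

set_option autoImplicit false
set_option linter.unusedSectionVars false
set_option linter.unusedVariables false
set_option linter.style.haveILetI false

/-!
Extension fields of odd prime degree with an involution: field facts.
-/

namespace Cfsg.Agent.UCth

open Module Cfsg.Agent.Uni

/-- The set-up: `|F| = q²`, `K / F` of odd prime degree `r`, `Q = q ^ r`. -/
structure Cf (F K : Type*) [Field F] [Fintype F] [Field K] [Fintype K] [Algebra F K] (q Q : ℕ) : Prop where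
  hF : Fintype.card F = q ^ 2
  hQ : Q = q ^ finrank F K
  hr : (finrank F K).Prime
  ho : Odd (finrank F K)

variable {F K : Type*} [Field F] [Fintype F] [Field K] [Fintype K] [Algebra F K] {q Q : ℕ}

theorem Cf.fd (C : Cf F K q Q) : FiniteDimensional F K := FiniteDimensional.of_finrank_pos C.hr.pos

theorem Cf.hK (C : Cf F K q Q) : Fintype.card K = Q ^ 2 := by
  have := C.fd
  rw [Module.card_eq_pow_finrank (K := F) (V := K), C.hF, C.hQ, ← pow_mul, ← pow_mul, mul_comm]

theorem Cf.bar_alg (C : Cf F K q Q) (c : F) : (algebraMap F K c) ^ Q = algebraMap F K (c ^ q) := by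
  rw [← map_pow]
  congr 1
  obtain ⟨m, hm⟩ := C.ho
  rw [C.hQ, hm]
  clear hm
  induction m with
  | zero => simp
  | succ m ih =>
    have : 2 * (m + 1) + 1 = 2 * m + 1 + 1 + 1 := by ring
    rw [this, pow_succ, pow_succ, pow_mul, pow_mul, ih, pow_q_pow_q C.hF]

theorem Cf.bar_bar (C : Cf F K q Q) (k : K) : (k ^ Q) ^ Q = k := pow_q_pow_q C.hK k

theorem Cf.bar_add (C : Cf F K q Q) (k l : K) : (k + l) ^ Q = k ^ Q + l ^ Q := add_pow_q C.hK k l

theorem Cf.bar_neg (C : Cf F K q Q) (k : K) : (-k) ^ Q = -(k ^ Q) := neg_pow_q C.hK k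

theorem Cf.bar_sub (C : Cf F K q Q) (k l : K) : (k - l) ^ Q = k ^ Q - l ^ Q := sub_pow_q C.hK k l

theorem Cf.bar_zero (C : Cf F K q Q) : (0 : K) ^ Q = 0 := zero_pow_q C.hK

theorem Cf.bar_eq_zero (C : Cf F K q Q) {k : K} : k ^ Q = 0 ↔ k = 0 := pow_q_eq_zero C.hK

theorem Cf.bar_inj (C : Cf F K q Q) {k l : K} : k ^ Q = l ^ Q ↔ k = l := pow_q_inj C.hK

theorem Cf.tr_sum (C : Cf F K q Q) (k : K) :
    algebraMap F K (Algebra.trace F K k) = ∑ σ : K ≃ₐ[F] K, σ k := by
  have := C.fd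
  exact trace_eq_sum_automorphisms k

theorem Cf.tr_bar (C : Cf F K q Q) (k : K) : Algebra.trace F K (k ^ Q) = (Algebra.trace F K k) ^ q := by
  apply (algebraMap F K).injective
  rw [← C.bar_alg, C.tr_sum, C.tr_sum, sum_pow_q C.hK]
  apply Finset.sum_congr rfl
  intro σ _
  rw [map_pow]

theorem Cf.tr_smul (C : Cf F K q Q) (c : F) (k : K) :
    Algebra.trace F K (algebraMap F K c * k) = c * Algebra.trace F K k := by
  rw [← Algebra.smul_def, map_smul, smul_eq_mul]

theorem Cf.tr_nd (C : Cf F K q Q) {k : K} (h : ∀ l, Algebra.trace F K (l * k) = 0) : k = 0 := by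
  have := C.fd
  have hnd := traceForm_nondegenerate F K
  apply hnd.1 k
  intro l
  rw [Algebra.traceForm_apply, mul_comm]
  exact h l

theorem Cf.exists_t (C : Cf F K q Q) : ∃ t : F, t + t ^ q = 1 := by
  obtain ⟨t, ht⟩ := exists_trace_eq (F := F) (q := q) C.hF (c := 1) (one_pow q)
  exact ⟨t, ht⟩

theorem Cf.exists_eps (C : Cf F K q Q) : ∃ x : F, x ≠ 0 ∧ x ^ q = -x := exists_skew C.hF

/-- `K = K⁺ + θ K⁺`. -/
theorem Cf.decomp (C : Cf F K q Q) {th : F} (hth : th ^ q ≠ th) (k : K) :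
    ∃ a b : K, a ^ Q = a ∧ b ^ Q = b ∧ k = a + algebraMap F K th * b := by
  have h0 : algebraMap F K th - (algebraMap F K th) ^ Q ≠ 0 := by
    rw [C.bar_alg, ← map_sub]
    intro h
    apply hth
    have := (map_eq_zero _).1 h
    linear_combination -this
  obtain ⟨T, hT⟩ : ∃ T, T = algebraMap F K th := ⟨_, rfl⟩
  rw [← hT] at h0 ⊢
  have hb : ((k - k ^ Q) / (T - T ^ Q)) ^ Q = (k - k ^ Q) / (T - T ^ Q) := by
    rw [div_pow, C.bar_sub, C.bar_sub, C.bar_bar, C.bar_bar, ← neg_sub k, ← neg_sub T, neg_div_neg_eq]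
  refine ⟨k - T * ((k - k ^ Q) / (T - T ^ Q)), (k - k ^ Q) / (T - T ^ Q), ?_, hb, by ring⟩
  rw [C.bar_sub, mul_pow, hb]
  field_simp
  ring

theorem Cf.exists_basis (C : Cf F K q Q) : ∃ (ι : Type) (_ : Fintype ι) (e : Basis ι F K), ∀ i, e i ^ Q = e i := by
  have := C.fd
  obtain ⟨th, hth⟩ := exists_pow_q_ne (F := F) C.hF
  have hs : ⊤ ≤ Submodule.span F {k : K | k ^ Q = k} := by
    intro k _
    obtain ⟨a, b, ha, hb, hk⟩ := C.decomp hth k
    rw [hk, ← Algebra.smul_def]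
    exact Submodule.add_mem _ (Submodule.subset_span ha) (Submodule.smul_mem _ _ (Submodule.subset_span hb))
  have e := Basis.ofSpan hs
  have he : ∀ i, Basis.ofSpan hs i ∈ {k : K | k ^ Q = k} := fun i => Basis.ofSpan_subset hs ⟨i, rfl⟩
  have hfin : Finite ((linearIndepOn_empty F (id : K → K)).extend (Set.empty_subset {k : K | k ^ Q = k})) := by
    exact Module.Finite.finite_basis (Basis.ofSpan hs)
  obtain ⟨n, ⟨eq⟩⟩ := Finite.exists_equiv_fin ((linearIndepOn_empty F (id : K → K)).extend (Set.empty_subset {k : K | k ^ Q = k}))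
  refine ⟨Fin n, inferInstance, (Basis.ofSpan hs).reindex eq, fun i => ?_⟩
  rw [Basis.reindex_apply]
  exact he _

open Classical in
/-- Dual families. -/
theorem Cf.exists_dual (C : Cf F K q Q) : ∃ (ι : Type) (_ : Fintype ι) (x y : ι → K),
    (∀ i, x i ^ Q = x i) ∧ (∀ i, y i ^ Q = y i) ∧
    ∀ ρ : K ≃ₐ[F] K, ∑ i, x i * ρ (y i) = if ρ = 1 then 1 else 0 := by
  classical
  have := C.fd
  obtain ⟨ι, hι, e, he⟩ := C.exists_basis
  have hnd := traceForm_nondegenerate F K
  let e' := (Algebra.traceForm F K).dualBasis hnd e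
  have h1 : ∀ i j, Algebra.trace F K (e' i * e j) = if j = i then 1 else 0 := by
    intro i j
    have := LinearMap.BilinForm.apply_dualBasis_left hnd e i j
    rw [Algebra.traceForm_apply] at this
    exact this
  have h2 : ∀ i, e' i ^ Q = e' i := by
    intro i
    have h3 : ∀ j, Algebra.trace F K ((e' i ^ Q - e' i) * e j) = 0 := by
      intro j
      rw [sub_mul, map_sub]
      conv_lhs => rw [← he j]
      rw [← mul_pow, C.tr_bar, he j, h1]
      split_ifs
      · rw [one_pow, sub_self]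
      · rw [zero_pow_q C.hF, sub_self]
    have h4 : e' i ^ Q - e' i = 0 := by
      apply C.tr_nd
      intro l
      rw [mul_comm, ← e.sum_repr l, Finset.mul_sum, map_sum]
      apply Finset.sum_eq_zero
      intro j _
      rw [mul_smul_comm, map_smul, h3, smul_zero]
    exact sub_eq_zero.1 h4
  refine ⟨ι, hι, fun i => e' i, fun i => e i, h2, he, ?_⟩
  have h5 : ∀ u : K, ∑ i, Algebra.trace F K (e i * u) • e' i = u := by
    intro u
    conv_rhs => rw [← e'.sum_repr u]
    apply Finset.sum_congr rfl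
    intro i _
    rw [LinearMap.BilinForm.dualBasis_repr_apply, Algebra.traceForm_apply, mul_comm]
  have h6 : ∀ u : K, ∑ ρ : K ≃ₐ[F] K, (∑ i, e' i * ρ (e i)) * ρ u = u := by
    intro u
    conv_rhs => rw [← h5 u]
    simp only [Algebra.smul_def, C.tr_sum, Finset.sum_mul]
    rw [Finset.sum_comm]
    apply Finset.sum_congr rfl
    intro i _
    apply Finset.sum_congr rfl
    intro ρ _
    rw [map_mul]; ring
  have hli := linearIndependent_monoidHom K K
  have hinj : Function.Injective (fun ρ : K ≃ₐ[F] K => ((ρ : K →+* K) : K →* K)) := by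
    intro a b hab
    ext k
    exact DFunLike.congr_fun hab k
  have hli2 := hli.comp _ hinj
  rw [Fintype.linearIndependent_iff] at hli2
  have h7 := hli2 (fun ρ => (∑ i, e' i * ρ (e i)) - if ρ = 1 then 1 else 0) (by
    funext u
    simp only [Finset.sum_apply, Pi.smul_apply, smul_eq_mul, Function.comp_apply, Pi.zero_apply]
    have : ∀ ρ : K ≃ₐ[F] K, ((∑ i, e' i * ρ (e i)) - if ρ = 1 then 1 else 0) * ((((ρ : K →+* K) : K →* K)) u) =
      (∑ i, e' i * ρ (e i)) * ρ u - if ρ = 1 then u else 0 := by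
      intro ρ
      have : (((ρ : K →+* K) : K →* K)) u = ρ u := rfl
      rw [this, sub_mul]
      congr 1
      split_ifs with h
      · rw [h]; simp
      · simp
    rw [Finset.sum_congr rfl (fun ρ _ => this ρ), Finset.sum_sub_distrib, h6]
    simp)
  intro ρ
  exact sub_eq_zero.1 (h7 ρ)

theorem Cf.eq_one_of_fix (C : Cf F K q Q) {s : K ≃ₐ[F] K} {c : K} (hc : c ∉ Set.range (algebraMap F K))
    (h : s c = c) : s = 1 := by
  have := C.fd
  have hdvd : finrank F (IntermediateField.adjoin F {c}) ∣ finrank F K :=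
    ⟨_, (Module.finrank_mul_finrank F (IntermediateField.adjoin F {c}) K).symm⟩
  have hne : finrank F (IntermediateField.adjoin F {c}) ≠ 1 := by
    intro h1
    rw [IntermediateField.finrank_adjoin_simple_eq_one_iff, IntermediateField.mem_bot] at h1
    exact hc h1
  have heq : finrank F (IntermediateField.adjoin F {c}) = finrank F K :=
    ((Nat.dvd_prime C.hr).1 hdvd).resolve_left hne
  have htop : IntermediateField.adjoin F {c} = ⊤ := IntermediateField.eq_of_le_of_finrank_eq le_top (by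
    rw [heq, IntermediateField.finrank_top'])
  let E : IntermediateField F K :=
    { carrier := {k | s k = k}
      mul_mem' := fun {a b} ha hb => by
        change s (a * b) = a * b
        rw [map_mul, show s a = a from ha, show s b = b from hb]
      add_mem' := fun {a b} ha hb => by
        change s (a + b) = a + b
        rw [map_add, show s a = a from ha, show s b = b from hb]
      algebraMap_mem' := fun r => s.commutes r
      inv_mem' := fun a ha => by
        change s a⁻¹ = a⁻¹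
        rw [map_inv₀, show s a = a from ha] }
  have hle : IntermediateField.adjoin F {c} ≤ E := by
    rw [IntermediateField.adjoin_simple_le_iff]
    exact h
  ext k
  have : k ∈ IntermediateField.adjoin F {c} := by rw [htop]; exact IntermediateField.mem_top
  exact hle this

theorem Cf.card_gt (C : Cf F K q Q) : 1 < finrank F K := C.hr.one_lt

open Classical in
/-- Operators coming from real elements. -/
theorem Cf.zop (C : Cf F K q Q) (Z : AddSubgroup ((K ≃ₐ[F] K) → K))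
    (hZ : ∀ w : K, w ^ Q = w → w ≠ 0 → ∀ c ∈ Z, (fun ρ => w * ρ (w ^ Q) * c ρ) ∈ Z)
    {n : (K ≃ₐ[F] K) → K} (hn : n ∈ Z) (τ : K ≃ₐ[F] K) {z : K} (hz : z ^ Q = z) :
    (fun ρ => ((if ρ = τ then z else 0) + (if ρ⁻¹ = τ then ρ z else 0)) * n ρ) ∈ Z := by
  have h0 : ∀ w : K, w ^ Q = w → (fun ρ : K ≃ₐ[F] K => w * ρ w * n ρ) ∈ Z := by
    intro w hw
    by_cases hw0 : w = 0
    · have : (fun ρ : K ≃ₐ[F] K => w * ρ w * n ρ) = 0 := by
        funext ρ
        rw [hw0]; simp
      rw [this]; exact Z.zero_mem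
    · have := hZ w hw hw0 n hn
      rw [hw] at this
      exact this
  have h1 : ∀ x y : K, x ^ Q = x → y ^ Q = y → (fun ρ : K ≃ₐ[F] K => (x * ρ y + y * ρ x) * n ρ) ∈ Z := by
    intro x y hx hy
    have h2 := Z.sub_mem (Z.sub_mem (h0 (x + y) (by rw [C.bar_add, hx, hy])) (h0 x hx)) (h0 y hy)
    convert h2 using 1
    funext ρ
    simp only [Pi.sub_apply, map_add]
    ring
  obtain ⟨ι, hι, x, y, hx, hy, hxy⟩ := C.exists_dual
  have h3 : (∑ i, fun ρ : K ≃ₐ[F] K => (z * τ (x i) * ρ (y i) + y i * ρ (z * τ (x i))) * n ρ) ∈ Z :=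
    Z.sum_mem fun i _ => h1 _ _ (by rw [mul_pow, ← map_pow, hz, hx]) (hy i)
  convert h3 using 1
  funext ρ
  rw [Finset.sum_apply, ← Finset.sum_mul]
  congr 1
  rw [Finset.sum_add_distrib]
  have e1 : ∑ i, z * τ (x i) * ρ (y i) = if ρ = τ then z else 0 := by
    have h4 := congrArg τ (hxy (τ⁻¹ * ρ))
    rw [map_sum] at h4
    have h5 : ∀ i, τ (x i * (τ⁻¹ * ρ) (y i)) = τ (x i) * ρ (y i) := by
      intro i
      rw [map_mul]
      congr 1
      change τ (τ.symm (ρ (y i))) = _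
      rw [AlgEquiv.apply_symm_apply]
    rw [Finset.sum_congr rfl (fun i _ => h5 i)] at h4
    simp only [mul_assoc, ← Finset.mul_sum]
    rw [h4]
    have h6 : (τ⁻¹ * ρ = 1) ↔ ρ = τ := by rw [inv_mul_eq_one, eq_comm]
    by_cases h7 : ρ = τ
    · rw [if_pos (h6.2 h7), if_pos h7, map_one, mul_one]
    · rw [if_neg (fun h => h7 (h6.1 h)), if_neg h7, map_zero, mul_zero]
  have e2 : ∑ i, y i * ρ (z * τ (x i)) = if ρ⁻¹ = τ then ρ z else 0 := by
    have h4 := congrArg (ρ * τ) (hxy ((ρ * τ)⁻¹))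
    rw [map_sum] at h4
    have h5 : ∀ i, (ρ * τ) (x i * ((ρ * τ)⁻¹) (y i)) = ρ (τ (x i)) * y i := by
      intro i
      rw [map_mul]
      congr 1
      change (ρ * τ) ((ρ * τ).symm (y i)) = _
      rw [AlgEquiv.apply_symm_apply]
    rw [Finset.sum_congr rfl (fun i _ => h5 i)] at h4
    have h8 : ∀ i, y i * ρ (z * τ (x i)) = ρ z * (ρ (τ (x i)) * y i) := by
      intro i
      rw [map_mul]; ring
    rw [Finset.sum_congr rfl (fun i _ => h8 i), ← Finset.mul_sum, h4]
    have h6 : ((ρ * τ)⁻¹ = 1) ↔ ρ⁻¹ = τ := by rw [inv_eq_one, mul_eq_one_iff_inv_eq]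
    by_cases h7 : ρ⁻¹ = τ
    · rw [if_pos (h6.2 h7), if_pos h7, map_one, mul_one]
    · rw [if_neg (fun h => h7 (h6.1 h)), if_neg h7, map_zero, mul_zero]
  rw [e1, e2]

open Classical in
/-- The skew map `u τ - τ⁻¹ ū`. -/
noncomputable def EE (Q : ℕ) (τ : K ≃ₐ[F] K) (u : K) : (K ≃ₐ[F] K) → K :=
  fun ρ => (if ρ = τ then u else 0) - (if ρ⁻¹ = τ then ρ (u ^ Q) else 0)

theorem Cf.zfull (C : Cf F K q Q) (Z : AddSubgroup ((K ≃ₐ[F] K) → K)) (A : Set K)
    (hA : ∀ w ∈ A, ∀ c ∈ Z, (fun ρ => w * ρ (w ^ Q) * c ρ) ∈ Z)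
    (hA1 : ∀ w : K, w ^ Q = w → w ≠ 0 → w ∈ A)
    (hA2 : ∃ w ∈ A, w ≠ 0 ∧ w / w ^ Q ∉ Set.range (algebraMap F K))
    (hZ1 : ∀ l : K, EE Q 1 l ∈ Z)
    {n : (K ≃ₐ[F] K) → K} (hn : n ∈ Z) (hn0 : ∀ ρ, ρ ≠ 1 → n ρ ≠ 0)
    (hns : ∀ ρ, n ρ⁻¹ = - ρ⁻¹ (n ρ ^ Q))
    {c : F} (hc : c ^ q = -c) (y : K) : (fun ρ => algebraMap F K c * y * ρ (y ^ Q)) ∈ Z := by
  classical
  have hinv : ∀ (τ : K ≃ₐ[F] K) (k : K), τ⁻¹ (τ k) = k := fun τ k => τ.symm_apply_apply k
  have hinv' : ∀ (τ : K ≃ₐ[F] K) (k : K), τ (τ⁻¹ k) = k := fun τ k => τ.apply_symm_apply k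
  have hEadd : ∀ (τ : K ≃ₐ[F] K) (u v : K), EE Q τ (u + v) = EE Q τ u + EE Q τ v := by
    intro τ u v
    funext ρ
    simp only [EE, Pi.add_apply, C.bar_add, map_add]
    split_ifs <;> ring
  -- each nontrivial component
  have h1 : ∀ τ : K ≃ₐ[F] K, τ ≠ 1 → ∀ u : K, EE Q τ u ∈ Z := by
    intro τ hτ
    have h2 : ∀ z : K, z ^ Q = z → EE Q τ (z * n τ) ∈ Z := by
      intro z hz
      have := C.zop Z (fun w hw hw0 c hc => hA w (hA1 w hw hw0) c hc) hn τ hz
      convert this using 1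
      funext ρ
      simp only [EE]
      rw [add_mul]
      by_cases h3 : ρ = τ
      · subst h3
        rw [if_pos rfl, if_pos rfl]
        by_cases h4 : ρ⁻¹ = ρ
        · rw [if_pos h4, if_pos h4]
          have h5 := hns ρ
          rw [h4] at h5
          rw [mul_pow, hz, map_mul]
          linear_combination (-ρ z) * h5
        · rw [if_neg h4, if_neg h4]; ring
      · rw [if_neg h3, if_neg h3]
        by_cases h4 : ρ⁻¹ = τ
        · rw [if_pos h4, if_pos h4]
          have h5 := hns τ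
          have h6 : τ⁻¹ = ρ := by rw [← h4, inv_inv]
          rw [h6] at h5
          rw [mul_pow, hz, map_mul]
          linear_combination (-ρ z) * h5
        · rw [if_neg h4, if_neg h4]; ring
    have h3 : ∀ w ∈ A, ∀ u, EE Q τ u ∈ Z → EE Q τ (w * τ (w ^ Q) * u) ∈ Z := by
      intro w hw u hu
      have := hA w hw _ hu
      convert this using 1
      funext ρ
      simp only [EE]
      rw [mul_sub]
      by_cases h3 : ρ = τ
      · subst h3
        rw [if_pos rfl, if_pos rfl]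
        by_cases h4 : ρ⁻¹ = ρ
        · rw [if_pos h4, if_pos h4, mul_pow, mul_pow, map_mul, map_mul, ← map_pow, C.bar_bar]
          have h5 : ρ (ρ w) = w := by
            have h6 := hinv ρ w
            rwa [h4] at h6
          rw [h5]; ring
        · rw [if_neg h4, if_neg h4]; ring
      · rw [if_neg h3, if_neg h3]
        by_cases h4 : ρ⁻¹ = τ
        · rw [if_pos h4, if_pos h4, mul_pow, mul_pow, map_mul, map_mul, ← map_pow, C.bar_bar]
          have h5 : ρ (τ w) = w := by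
            rw [← h4]
            exact hinv' _ _
          rw [h5]; ring
        · rw [if_neg h4, if_neg h4]; ring
    obtain ⟨w, hwA, hw0, hw⟩ := hA2
    obtain ⟨κ, hκ⟩ : ∃ κ, κ = w * τ (w ^ Q) := ⟨_, rfl⟩
    have hκr : κ ^ Q ≠ κ := by
      intro h4
      rw [hκ, mul_pow, ← map_pow, C.bar_bar] at h4
      have hwQ : w ^ Q ≠ 0 := pow_ne_zero _ hw0
      have h5 : τ (w / w ^ Q) = w / w ^ Q := by
        rw [map_div₀, div_eq_div_iff (by rwa [map_ne_zero]) hwQ]
        linear_combination h4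
      exact hτ (C.eq_one_of_fix hw h5)
    intro u
    have hd : κ - κ ^ Q ≠ 0 := fun h => hκr (sub_eq_zero.1 h).symm
    obtain ⟨v, hv⟩ : ∃ v, v = u / n τ := ⟨_, rfl⟩
    have hb : ((v - v ^ Q) / (κ - κ ^ Q)) ^ Q = (v - v ^ Q) / (κ - κ ^ Q) := by
      rw [div_pow, C.bar_sub, C.bar_sub, C.bar_bar, C.bar_bar, ← neg_sub v, ← neg_sub κ, neg_div_neg_eq]
    have ha : (v - (v - v ^ Q) / (κ - κ ^ Q) * κ) ^ Q = v - (v - v ^ Q) / (κ - κ ^ Q) * κ := by
      rw [C.bar_sub, mul_pow, hb]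
      field_simp
      ring
    have h6 := Z.add_mem (h2 _ ha) (h3 w hwA _ (h2 _ hb))
    rw [← hEadd] at h6
    convert h6 using 2
    rw [← hκ]
    have hnτ := hn0 τ hτ
    rw [hv]
    field_simp
    ring
  obtain ⟨t, ht⟩ := C.exists_t
  have hm1 : EE Q 1 (algebraMap F K (t * c) * y * y ^ Q) ∈ Z := hZ1 _
  have h7 : (∑ τ : K ≃ₐ[F] K, EE Q τ (algebraMap F K (t * c) * y * τ (y ^ Q))) ∈ Z := by
    apply Z.sum_mem
    intro τ _
    by_cases hτ : τ = 1
    · rw [hτ]; exact hm1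
    · exact h1 τ hτ _
  convert h7 using 1
  funext ρ
  rw [Finset.sum_apply]
  simp only [EE]
  rw [Finset.sum_sub_distrib, Finset.sum_ite_eq Finset.univ ρ, if_pos (Finset.mem_univ _),
    Finset.sum_ite_eq Finset.univ ρ⁻¹, if_pos (Finset.mem_univ _)]
  have e1 : (algebraMap F K (t * c) * y * ρ⁻¹ (y ^ Q)) ^ Q = - (algebraMap F K (t ^ q * c) * y ^ Q * ρ⁻¹ y) := by
    rw [mul_pow, mul_pow, ← map_pow ρ⁻¹, C.bar_bar, C.bar_alg, mul_pow, hc, mul_neg, map_neg]
    ring
  rw [e1, map_neg, map_mul ρ, map_mul ρ, hinv', AlgEquiv.commutes]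
  have ht2 : algebraMap F K (t ^ q) = 1 - algebraMap F K t := by
    rw [← map_one (algebraMap F K), ← map_sub, ← ht]; ring_nf
  rw [map_mul, map_mul (algebraMap F K) (t ^ q) c, ht2]
  ring

end Cfsg.Agent.UCth
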