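import Mathlib
import Cfsg.Agent.UCth.Fld

set_option autoImplicit false
set_option linter.unusedSectionVars false
set_option linter.unusedVariables false
set_option linter.style.haveILetI false

/-!
Chevalley-Warning over the fixed field and its consequences.
-/

namespace Cfsg.Agent.UCth

open Module Cfsg.Agent.Uni MvPolynomial

variable {F K : Type*} [Field F] [Fintype F] [Field K] [Fintype K] [Algebra F K] {q Q : ℕ}

/-- The fixed field. -/
def fixF (F : Type*) [Field F] [Fintype F] (q : ℕ) (hF : Fintype.card F = q ^ 2) : Subfield F where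
  carrier := {x | x ^ q = x}
  mul_mem' := fun {a b} ha hb => by
    change (a * b) ^ q = a * b
    rw [mul_pow, show a ^ q = a from ha, show b ^ q = b from hb]
  one_mem' := one_pow q
  add_mem' := fun {a b} ha hb => by
    change (a + b) ^ q = a + b
    rw [add_pow_q hF, show a ^ q = a from ha, show b ^ q = b from hb]
  zero_mem' := zero_pow_q hF
  neg_mem' := fun {a} ha => by
    change (-a) ^ q = -a
    rw [neg_pow_q hF, show a ^ q = a from ha]
  inv_mem' := fun a ha => by
    change a⁻¹ ^ q = a⁻¹
    rw [inv_pow, show a ^ q = a from ha]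

theorem mem_fixF (hF : Fintype.card F = q ^ 2) {x : F} : x ∈ fixF F q hF ↔ x ^ q = x := Iff.rfl

theorem cw (hF : Fintype.card F = q ^ 2) {ι : Type*} (s : Finset ι) {σ : Type*} [Fintype σ] (P : ι → MvPolynomial σ F)
    (hreal : ∀ i ∈ s, ∀ x : σ → F, (∀ j, x j ^ q = x j) → (eval x (P i)) ^ q = eval x (P i))
    (h0 : ∀ i ∈ s, eval 0 (P i) = 0)
    (hdeg : ∑ i ∈ s, (P i).totalDegree < Fintype.card σ) :
    ∃ x : σ → F, x ≠ 0 ∧ (∀ j, x j ^ q = x j) ∧ ∀ i ∈ s, eval x (P i) = 0 := by
  classical
  obtain ⟨t, ht⟩ := exists_trace_eq (F := F) (q := q) hF (c := 1) (one_pow q)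
  let k0 := fixF F q hF
  have hfin : Fintype k0 := Fintype.ofFinite k0
  obtain ⟨p, hp⟩ := CharP.exists F
  have hpp : Fact p.Prime := ⟨CharP.char_is_prime F p⟩
  have hchar : CharP k0 p := (RingHom.charP_iff (Subfield.subtype k0) (Subtype.val_injective) p).2 hp
  let ℓ : F → k0 := fun c => ⟨t * c + (t * c) ^ q, by
    change (t * c + (t * c) ^ q) ^ q = _
    rw [add_pow_q hF, pow_q_pow_q hF, add_comm]⟩
  let P0 : ι → MvPolynomial σ k0 := fun i =>
    ∑ d ∈ (P i).support, monomial d (ℓ (coeff d (P i)))
  have hP0deg : ∀ i, (P0 i).totalDegree ≤ (P i).totalDegree := by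
    intro i
    apply totalDegree_finsetSum_le
    intro d hd
    refine (totalDegree_monomial_le _ _).trans ?_
    exact le_totalDegree hd
  have hP0 : ∀ i ∈ s, ∀ x : σ → k0, ((eval x (P0 i) : k0) : F) = eval (fun j => (x j : F)) (P i) := by
    intro i hi x
    have h1 : ∀ d : σ →₀ ℕ, ((∏ j, x j ^ d j : k0) : F) = ∏ j, (x j : F) ^ d j := by
      intro d
      push_cast
      rfl
    have h2 : ∀ d : σ →₀ ℕ, (∏ j, (x j : F) ^ d j) ^ q = ∏ j, (x j : F) ^ d j := by
      intro d
      rw [← h1]
      exact (∏ j, x j ^ d j : k0).2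
    have h3 : ((eval x (P0 i) : k0) : F) = t * eval (fun j => (x j : F)) (P i) + (t * eval (fun j => (x j : F)) (P i)) ^ q := by
      rw [map_sum, eval_eq' (fun j => (x j : F)) (P i), Finset.mul_sum, sum_pow_q hF, ← Finset.sum_add_distrib]
      rw [AddSubmonoidClass.coe_finsetSum]
      apply Finset.sum_congr rfl
      intro d _
      rw [eval_monomial, Finsupp.prod_fintype _ _ (fun j => pow_zero _)]
      change (t * coeff d (P i) + (t * coeff d (P i)) ^ q) * ((∏ j, x j ^ d j : k0) : F) = _
      rw [h1]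
      have e1 : t * (coeff d (P i) * ∏ j, (x j : F) ^ d j) = (t * coeff d (P i)) * ∏ j, (x j : F) ^ d j := by ring
      rw [e1, mul_pow (t * coeff d (P i)), h2]
      ring
    rw [h3, mul_pow, hreal i hi _ (fun j => (x j).2), ← add_mul, ht, one_mul]
  have hdeg' : (∑ i ∈ s, (P0 i).totalDegree) < Fintype.card σ := by
    exact lt_of_le_of_lt (Finset.sum_le_sum fun i _ => hP0deg i) hdeg
  have hdvd := char_dvd_card_solutions_of_sum_lt (K := k0) p hdeg'
  have h00 : ∀ i ∈ s, eval (0 : σ → k0) (P0 i) = 0 := by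
    intro i hi
    apply Subtype.ext
    rw [hP0 i hi]
    exact h0 i hi
  have hpos : 0 < Fintype.card { x : σ → k0 // ∀ i ∈ s, eval x (P0 i) = 0 } :=
    Fintype.card_pos_iff.2 ⟨⟨0, h00⟩⟩
  have h1 : 1 < Fintype.card { x : σ → k0 // ∀ i ∈ s, eval x (P0 i) = 0 } :=
    lt_of_lt_of_le hpp.1.one_lt (Nat.le_of_dvd hpos hdvd)
  obtain ⟨⟨x, hx⟩, hx0⟩ := Fintype.exists_ne_of_one_lt_card h1 ⟨0, h00⟩
  refine ⟨fun j => (x j : F), ?_, fun j => (x j).2, fun i hi => ?_⟩
  · intro h
    apply hx0
    apply Subtype.ext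
    funext j
    apply Subtype.ext
    exact congrFun h j
  · rw [← hP0 i hi, hx i hi]
    rfl

theorem Cf.adjoin_top (C : Cf F K q Q) {k : K} (hk : k ∉ Set.range (algebraMap F K)) :
    Algebra.adjoin F {k} = ⊤ := by
  have := C.fd
  have hdvd : finrank F (IntermediateField.adjoin F {k}) ∣ finrank F K :=
    ⟨_, (Module.finrank_mul_finrank F (IntermediateField.adjoin F {k}) K).symm⟩
  have hne : finrank F (IntermediateField.adjoin F {k}) ≠ 1 := by
    intro h1
    rw [IntermediateField.finrank_adjoin_simple_eq_one_iff, IntermediateField.mem_bot] at h1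
    exact hk h1
  have heq : finrank F (IntermediateField.adjoin F {k}) = finrank F K :=
    ((Nat.dvd_prime C.hr).1 hdvd).resolve_left hne
  have htop : IntermediateField.adjoin F {k} = ⊤ := IntermediateField.eq_of_le_of_finrank_eq le_top (by
    rw [heq, IntermediateField.finrank_top'])
  rw [← IntermediateField.adjoin_simple_toSubalgebra_of_isAlgebraic (Algebra.IsAlgebraic.isAlgebraic k), htop,
    IntermediateField.top_toSubalgebra]

/-- A subspace stable under some `k ∉ F` is stable under `K`. -/
theorem Cf.stab_all (C : Cf F K q Q) (W : Submodule F K) {k : K} (hk : k ∉ Set.range (algebraMap F K))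
    (h : ∀ w ∈ W, k * w ∈ W) (κ : K) : ∀ w ∈ W, κ * w ∈ W := by
  have hκ : κ ∈ Algebra.adjoin F {k} := by rw [C.adjoin_top hk]; exact Algebra.mem_top
  induction hκ using Algebra.adjoin_induction with
  | mem x hx => rw [Set.mem_singleton_iff.1 hx]; exact h
  | algebraMap c => intro w hw; rw [← Algebra.smul_def]; exact W.smul_mem _ hw
  | add x y _ _ hx hy => intro w hw; rw [add_mul]; exact W.add_mem (hx w hw) (hy w hw)
  | mul x y _ _ hx hy => intro w hw; rw [mul_assoc]; exact hx _ (hy w hw)

/-- Conjugates of an independent family are independent. -/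
theorem Cf.li_bar (C : Cf F K q Q) {m : ℕ} {b : Fin m → K} (hb : LinearIndependent F b) :
    LinearIndependent F (fun j => b j ^ Q) := by
  rw [Fintype.linearIndependent_iff] at hb ⊢
  intro g hg i
  have h1 : (∑ j, (g j ^ q) • b j) ^ Q = 0 := by
    rw [sum_pow_q C.hK]
    rw [← hg]
    apply Finset.sum_congr rfl
    intro j _
    rw [Algebra.smul_def, mul_pow, C.bar_alg, pow_q_pow_q C.hF, Algebra.smul_def]
  have h2 := hb _ (C.bar_eq_zero.1 h1) i
  exact (pow_q_eq_zero C.hF).1 h2

/-- The orthogonal of `E` for `Tr (x ȳ)`. -/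
def perpK (Q : ℕ) (E : Submodule F K) (C : Cf F K q Q) : Submodule F K where
  carrier := {z | ∀ y ∈ E, Algebra.trace F K (z * y ^ Q) = 0}
  add_mem' := fun {a b} ha hb y hy => by rw [add_mul, map_add, ha y hy, hb y hy, add_zero]
  zero_mem' := fun y hy => by rw [zero_mul, map_zero]
  smul_mem' := fun c a ha y hy => by rw [smul_mul_assoc, map_smul, ha y hy, smul_zero]

theorem finrank_perpK (C : Cf F K q Q) (E : Submodule F K) :
    finrank F (perpK Q E C) = finrank F K - finrank F E := by
  have := C.fd
  let b := Module.finBasis F E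
  have hb : LinearIndependent F (fun j => (b j : K)) := by
    have := b.linearIndependent.map' E.subtype (Submodule.ker_subtype E)
    exact this
  have hb2 := C.li_bar hb
  let W : Submodule F K := Submodule.span F (Set.range fun j => (b j : K) ^ Q)
  have hW : finrank F W = finrank F E := by
    rw [finrank_span_eq_card hb2, Fintype.card_fin]
  have hperp : perpK Q E C = (Algebra.traceForm F K).orthogonal W := by
    ext z
    rw [LinearMap.BilinForm.mem_orthogonal_iff]
    constructor
    · intro hz w hw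
      change Algebra.trace F K (w * z) = 0
      induction hw using Submodule.span_induction with
      | mem x hx =>
        obtain ⟨j, rfl⟩ := hx
        change Algebra.trace F K ((b j : K) ^ Q * z) = 0
        rw [mul_comm]
        exact hz _ (b j).2
      | zero => rw [zero_mul, map_zero]
      | add x y _ _ hx hy => rw [add_mul, map_add, hx, hy, add_zero]
      | smul c x _ hx => rw [smul_mul_assoc, map_smul, hx, smul_zero]
    · intro hz y hy
      have h1 : y = ∑ j, (b.repr ⟨y, hy⟩ j) • (b j : K) := by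
        have := congrArg Subtype.val (b.sum_repr ⟨y, hy⟩)
        rw [AddSubmonoidClass.coe_finsetSum] at this
        exact this.symm
      rw [h1, sum_pow_q C.hK, Finset.mul_sum, map_sum]
      apply Finset.sum_eq_zero
      intro j _
      rw [Algebra.smul_def, mul_pow, C.bar_alg, mul_left_comm, C.tr_smul]
      have h2 := hz ((b j : K) ^ Q) (Submodule.subset_span ⟨j, rfl⟩)
      change Algebra.trace F K ((b j : K) ^ Q * z) = 0 at h2
      rw [mul_comm z, h2, mul_zero]
  rw [hperp, LinearMap.BilinForm.finrank_orthogonal (traceForm_nondegenerate F K), hW]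

/-- The multiplications making `E` totally isotropic. -/
def kerK (Q : ℕ) (E : Submodule F K) : Submodule F K where
  carrier := {l | ∀ x ∈ E, ∀ y ∈ E, Algebra.trace F K (l * x * y ^ Q) = 0}
  add_mem' := fun {a b} ha hb x hx y hy => by rw [add_mul, add_mul, map_add, ha x hx y hy, hb x hx y hy, add_zero]
  zero_mem' := fun x hx y hy => by rw [zero_mul, zero_mul, map_zero]
  smul_mem' := fun c a ha x hx y hy => by
    rw [smul_mul_assoc, smul_mul_assoc, map_smul, ha x hx y hy, smul_zero]

theorem finrank_kerK (C : Cf F K q Q) (E : Submodule F K) (h2 : 2 ≤ finrank F E)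
    (hlt : finrank F E < finrank F K) : finrank F (kerK Q E) + finrank F E < finrank F K := by
  have := C.fd
  by_contra hcon
  push Not at hcon
  have h3 : ∀ x₀ ∈ E, x₀ ≠ 0 → ∀ z, z ∈ perpK Q E C → ∃ w ∈ kerK Q E, w * x₀ = z := by
    intro x₀ hx₀ hx0
    let mu : K →ₗ[F] K := LinearMap.mulRight F x₀
    have hinj : Function.Injective mu := by
      intro a b hab
      exact mul_right_cancel₀ hx0 hab
    have hle : (kerK Q E).map mu ≤ perpK Q E C := by
      rintro _ ⟨w, hw, rfl⟩ y hy
      exact hw x₀ hx₀ y hy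
    have hfr : finrank F ((kerK Q E).map mu) = finrank F (kerK Q E) :=
      (LinearEquiv.finrank_eq (Submodule.equivMapOfInjective mu hinj _)).symm
    have heq : (kerK Q E).map mu = perpK Q E C := by
      apply Submodule.eq_of_le_of_finrank_le hle
      rw [finrank_perpK, hfr]
      omega
    intro z hz
    rw [← heq] at hz
    obtain ⟨w, hw, hwz⟩ := hz
    exact ⟨w, hw, hwz⟩
  let b := Module.finBasis F E
  have hli : LinearIndependent F (fun j => (b j : K)) :=
    b.linearIndependent.map' E.subtype (Submodule.ker_subtype E)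
  obtain ⟨i0, i1, hne⟩ : ∃ i j : Fin (finrank F E), i ≠ j := by
    refine ⟨⟨0, by omega⟩, ⟨1, by omega⟩, ?_⟩
    intro h
    have := congrArg Fin.val h
    simp at this
  have hx0 : (b i0 : K) ≠ 0 := hli.ne_zero i0
  have hx1 : (b i1 : K) ≠ 0 := hli.ne_zero i1
  have hk : (b i1 : K) / (b i0 : K) ∉ Set.range (algebraMap F K) := by
    rintro ⟨c, hc⟩
    have h4 : (b i1 : K) = c • (b i0 : K) := by
      rw [Algebra.smul_def, hc, div_mul_cancel₀ _ hx0]
    have h5 := linearIndependent_iff_injective_finsuppLinearCombination.1 hli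
    have h6 : LinearIndependent F ![(b i0 : K), (b i1 : K)] := by
      have h7 := hli.comp ![i0, i1] (by
        intro a a' haa
        fin_cases a <;> fin_cases a' <;> simp_all)
      convert h7 using 1
      funext a
      fin_cases a <;> rfl
    rw [LinearIndependent.pair_iff] at h6
    have h8 := h6 c (-1) (by rw [h4]; simp)
    have := h8.2
    norm_num at this
  have hst : ∀ w ∈ kerK Q E, ((b i1 : K) / (b i0 : K)) * w ∈ kerK Q E := by
    intro w hw
    have h4 : w * (b i1 : K) ∈ perpK Q E C := fun y hy => hw _ (b i1).2 y hy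
    obtain ⟨w', hw', hww'⟩ := h3 _ (b i0).2 hx0 _ h4
    have h5 : w' = ((b i1 : K) / (b i0 : K)) * w := by
      field_simp
      linear_combination hww'
    rwa [← h5]
  have hall := C.stab_all _ hk hst
  obtain ⟨w, hw, hw0⟩ : ∃ w ∈ kerK Q E, w ≠ 0 := by
    by_contra hcon2
    push Not at hcon2
    have : kerK Q E = ⊥ := (Submodule.eq_bot_iff _).2 hcon2
    rw [this, finrank_bot] at hcon
    omega
  have htop : ∀ κ : K, κ ∈ kerK Q E := by
    intro κ
    have := hall (κ / w) w hw
    rwa [div_mul_cancel₀ _ hw0] at this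
  have h9 : (b i0 : K) * (b i0 : K) ^ Q = 0 := by
    apply C.tr_nd
    intro l
    rw [← mul_assoc]
    exact htop l _ (b i0).2 _ (b i0).2
  rcases mul_eq_zero.1 h9 with h | h
  · exact hx0 h
  · exact hx0 (C.bar_eq_zero.1 h)

theorem Cf.lower (C : Cf F K q Q) (E : Submodule F K) (h2 : 2 ≤ finrank F E)
    (hlt : finrank F E < finrank F K) :
    ∃ l : K, l ^ Q = -l ∧ (∃ x ∈ E, x ≠ 0 ∧ ∀ y ∈ E, Algebra.trace F K (l * x * y ^ Q) = 0) ∧
      ∃ x ∈ E, ∃ y ∈ E, Algebra.trace F K (l * x * y ^ Q) ≠ 0 := by
  classical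
  have := C.fd
  let b := Module.finBasis F E
  let Θ : K →ₗ[F] Matrix (Fin (finrank F E)) (Fin (finrank F E)) F :=
    { toFun := fun l => Matrix.of fun i j => Algebra.trace F K (l * (b i : K) * (b j : K) ^ Q)
      map_add' := fun l l' => by
        ext i j
        simp only [Matrix.of_apply, Matrix.add_apply, add_mul, map_add]
      map_smul' := fun c l => by
        ext i j
        simp only [Matrix.of_apply, Matrix.smul_apply, smul_mul_assoc, map_smul, RingHom.id_apply] }
  have hΘ : ∀ l i j, Θ l i j = Algebra.trace F K (l * (b i : K) * (b j : K) ^ Q) := fun l i j => rfl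
  have hexp : ∀ y ∈ E, ∃ c : Fin (finrank F E) → F, y = ∑ j, c j • (b j : K) := by
    intro y hy
    refine ⟨fun j => b.repr ⟨y, hy⟩ j, ?_⟩
    have := congrArg Subtype.val (b.sum_repr ⟨y, hy⟩)
    rw [AddSubmonoidClass.coe_finsetSum] at this
    exact this.symm
  have hright : ∀ l x, (∀ j, Algebra.trace F K (l * x * (b j : K) ^ Q) = 0) → ∀ y ∈ E,
      Algebra.trace F K (l * x * y ^ Q) = 0 := by
    intro l x h y hy
    obtain ⟨c, hc⟩ := hexp y hy
    rw [hc, sum_pow_q C.hK, Finset.mul_sum, map_sum]
    apply Finset.sum_eq_zero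
    intro j _
    rw [Algebra.smul_def, mul_pow, C.bar_alg, mul_left_comm, C.tr_smul, h, mul_zero]
  have hleft : ∀ l, (∀ i j, Algebra.trace F K (l * (b i : K) * (b j : K) ^ Q) = 0) → ∀ x ∈ E, ∀ y ∈ E,
      Algebra.trace F K (l * x * y ^ Q) = 0 := by
    intro l h x hx
    apply hright
    intro j
    obtain ⟨c, hc⟩ := hexp x hx
    rw [hc, Finset.mul_sum, Finset.sum_mul, map_sum]
    apply Finset.sum_eq_zero
    intro i _
    rw [mul_smul_comm, smul_mul_assoc, map_smul, h, smul_zero]
  have hker : LinearMap.ker Θ = kerK Q E := by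
    ext l
    rw [LinearMap.mem_ker]
    constructor
    · intro h
      apply hleft
      intro i j
      rw [← hΘ, h]; rfl
    · intro h
      ext i j
      rw [hΘ]
      exact h _ (b i).2 _ (b j).2
  have hrank : finrank F E < finrank F (LinearMap.range Θ) := by
    have h1 := LinearMap.finrank_range_add_finrank_ker Θ
    rw [hker] at h1
    have h3 := finrank_kerK C E h2 hlt
    omega
  obtain ⟨ι, hι, e, he⟩ := C.exists_basis
  obtain ⟨κ, a, ha, hsp, hli⟩ := exists_linearIndependent' F (fun i => Θ (e i))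
  have hκ : Finite κ := Finite.of_injective a ha
  have hκf := Fintype.ofFinite κ
  have hrange : Submodule.span F (Set.range (fun i => Θ (e i))) = LinearMap.range Θ := by
    apply le_antisymm
    · rw [Submodule.span_le]
      rintro _ ⟨i, rfl⟩
      exact ⟨e i, rfl⟩
    · rintro _ ⟨l, rfl⟩
      rw [← e.sum_repr l, map_sum]
      apply Submodule.sum_mem
      intro i _
      rw [map_smul]
      exact Submodule.smul_mem _ _ (Submodule.subset_span ⟨i, rfl⟩)
  have hcard : finrank F (LinearMap.range Θ) = Fintype.card κ := by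
    rw [← hrange, ← hsp]
    exact finrank_span_eq_card hli
  let g := Fintype.equivFin κ
  let lam : Fin (Fintype.card κ) → K := fun j => e (a (g.symm j))
  have hlam : ∀ j, lam j ^ Q = lam j := fun j => he _
  have hli2 : LinearIndependent F (fun j => Θ (lam j)) := hli.comp g.symm g.symm.injective
  let MP : Matrix (Fin (finrank F E)) (Fin (finrank F E)) (MvPolynomial (Fin (Fintype.card κ)) F) :=
    Matrix.of fun i i' => ∑ j, X j * MvPolynomial.C (Θ (lam j) i i')
  have hMPdeg : ∀ i i', (MP i i').totalDegree ≤ 1 := by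
    intro i i'
    change (∑ j, X j * MvPolynomial.C (Θ (lam j) i i')).totalDegree ≤ 1
    apply totalDegree_finsetSum_le
    intro j _
    refine (totalDegree_mul _ _).trans ?_
    rw [totalDegree_X, totalDegree_C]
  have hMPdet : MP.det.totalDegree ≤ finrank F E := by
    rw [Matrix.det_apply']
    apply totalDegree_finsetSum_le
    intro σ _
    refine (totalDegree_mul _ _).trans ?_
    have h1 : (((Equiv.Perm.sign σ : ℤˣ) : ℤ) : MvPolynomial (Fin (Fintype.card κ)) F) =
        MvPolynomial.C (((Equiv.Perm.sign σ : ℤˣ) : ℤ) : F) := by rw [map_intCast]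
    rw [h1, totalDegree_C, zero_add]
    refine (totalDegree_finsetProd _ _).trans ?_
    refine (Finset.sum_le_sum fun i _ => hMPdeg _ _).trans ?_
    simp
  have hev : ∀ x : Fin (Fintype.card κ) → F, eval x MP.det = (Θ (∑ j, x j • lam j)).det := by
    intro x
    rw [RingHom.map_det]
    congr 1
    ext i i'
    rw [RingHom.mapMatrix_apply, Matrix.map_apply, map_sum]
    simp only [MP, Matrix.of_apply, map_sum, map_mul, eval_X, eval_C, map_smul, Matrix.sum_apply, Matrix.smul_apply,
      smul_eq_mul]
  have hherm : ∀ x : Fin (Fintype.card κ) → F, (∀ j, x j ^ q = x j) →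
      (∑ j, x j • lam j) ^ Q = ∑ j, x j • lam j := by
    intro x hx
    rw [sum_pow_q C.hK]
    apply Finset.sum_congr rfl
    intro j _
    rw [Algebra.smul_def, mul_pow, C.bar_alg, hx, hlam]
  obtain ⟨x, hx0, hx, hxP⟩ := cw C.hF (Finset.univ : Finset Unit) (fun _ => MP.det) (by
    intro _ _ x hx
    rw [hev]
    change conjHom C.hF (Θ (∑ j, x j • lam j)).det = _
    rw [RingHom.map_det, ← Matrix.det_transpose]
    congr 1
    ext i i'
    rw [Matrix.transpose_apply, RingHom.mapMatrix_apply, Matrix.map_apply, hΘ, hΘ]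
    change Algebra.trace F K _ ^ q = _
    rw [← C.tr_bar, mul_pow, mul_pow, hherm x hx, C.bar_bar]
    congr 1
    ring) (by
    intro _ _
    rw [hev]
    have : (∑ j, (0 : Fin (Fintype.card κ) → F) j • lam j) = 0 := by simp
    rw [this, map_zero]
    have : Nonempty (Fin (finrank F E)) := ⟨⟨0, by omega⟩⟩
    exact Matrix.det_zero) (by
    rw [Finset.sum_const, Finset.card_univ, Fintype.card_unit, one_smul, Fintype.card_fin]
    rw [hcard] at hrank
    exact lt_of_le_of_lt hMPdet hrank)
  have hxP' := hxP () (Finset.mem_univ _)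
  rw [hev] at hxP'
  obtain ⟨L, hL⟩ : ∃ L, L = ∑ j, x j • lam j := ⟨_, rfl⟩
  rw [← hL] at hxP'
  have hLr : L ^ Q = L := by rw [hL]; exact hherm x hx
  have hL0 : Θ L ≠ 0 := by
    intro h0
    apply hx0
    rw [Fintype.linearIndependent_iff] at hli2
    funext j
    exact hli2 x (by rw [← h0, hL, map_sum]; simp only [map_smul]) j
  obtain ⟨v, hv0, hv⟩ := Matrix.exists_vecMul_eq_zero_iff.2 hxP'
  obtain ⟨ε, hε0, hε⟩ := C.exists_eps
  have hl0 : ∀ z, Algebra.trace F K (algebraMap F K ε * L * z) = ε * Algebra.trace F K (L * z) := by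
    intro z
    rw [mul_assoc, C.tr_smul]
  refine ⟨algebraMap F K ε * L, ?_, ⟨∑ i, v i • (b i : K), ?_, ?_, ?_⟩, ?_⟩
  · rw [mul_pow, C.bar_alg, hε, hLr, map_neg]; ring
  · exact Submodule.sum_mem _ fun i _ => Submodule.smul_mem _ _ (b i).2
  · intro h0
    have hli3 : LinearIndependent F (fun j => (b j : K)) :=
      b.linearIndependent.map' E.subtype (Submodule.ker_subtype E)
    rw [Fintype.linearIndependent_iff] at hli3
    apply hv0
    funext j
    exact hli3 v h0 j
  · apply hright
    intro j
    rw [mul_assoc, hl0]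
    have h1 := congrFun hv j
    rw [Matrix.vecMul, dotProduct] at h1
    have h3 : Algebra.trace F K (L * ((∑ i, v i • (b i : K)) * (b j : K) ^ Q)) = ∑ i, v i * Θ L i j := by
      rw [Finset.sum_mul, Finset.mul_sum, map_sum]
      apply Finset.sum_congr rfl
      intro i _
      rw [smul_mul_assoc, mul_smul_comm, map_smul, smul_eq_mul, hΘ, mul_assoc]
    rw [h3, h1]
    simp
  · by_contra hcon
    push Not at hcon
    apply hL0
    ext i j
    have h1 := hcon _ (b i).2 _ (b j).2
    rw [mul_assoc, hl0] at h1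
    rw [hΘ, mul_assoc]
    exact (mul_eq_zero.1 h1).resolve_left hε0

/-- A real quadratic map with trace zero has a non-trivial zero. -/
theorem Cf.exists_zero (C : Cf F K q Q) (B : K → K → K)
    (hadd : ∀ a b c, B (a + b) c = B a c + B b c) (hsmul : ∀ (c : F) a b, B (algebraMap F K c * a) b = algebraMap F K c * B a b)
    (hsymm : ∀ a b, B b a = B a b ^ Q) (htr : ∀ a, Algebra.trace F K (B a a) = 0) :
    ∃ a, a ≠ 0 ∧ B a a = 0 := by
  classical
  have := C.fd
  obtain ⟨th, hth⟩ := exists_pow_q_ne (F := F) C.hF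
  obtain ⟨ι, hι, e, he⟩ := C.exists_basis
  have hadd' : ∀ a b c, B a (b + c) = B a b + B a c := by
    intro a b c
    rw [← C.bar_inj, ← hsymm, hadd, C.bar_add, ← hsymm, ← hsymm]
  have hsmul' : ∀ (c : F) a b, B a (algebraMap F K c * b) = algebraMap F K (c ^ q) * B a b := by
    intro c a b
    rw [← C.bar_inj, ← hsymm, hsmul, mul_pow, C.bar_alg, pow_q_pow_q C.hF, ← hsymm]
  have hz : ∀ a, B 0 a = 0 := by
    intro a
    have := hsmul 0 0 a
    rwa [map_zero, zero_mul, zero_mul] at this
  have hz' : ∀ a, B a 0 = 0 := by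
    intro a
    rw [hsymm, hz, C.bar_zero]
  let β : ι ⊕ ι → K := Sum.elim (fun i => e i) (fun i => algebraMap F K th * e i)
  have hsum : ∀ (x y : ι ⊕ ι → F), B (∑ s, x s • β s) (∑ s, y s • β s) =
      ∑ s, ∑ s', algebraMap F K (x s * y s' ^ q) * B (β s) (β s') := by
    intro x y
    have e1 : ∀ (T : Finset (ι ⊕ ι)) b, B (∑ s ∈ T, x s • β s) b = ∑ s ∈ T, algebraMap F K (x s) * B (β s) b := by
      intro T b
      induction T using Finset.induction_on with
      | empty => simp [hz]
      | insert a T ha ih => rw [Finset.sum_insert ha, Finset.sum_insert ha, hadd, ih, Algebra.smul_def, hsmul]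
    have e2 : ∀ (T : Finset (ι ⊕ ι)) a, B a (∑ s ∈ T, y s • β s) = ∑ s ∈ T, algebraMap F K (y s ^ q) * B a (β s) := by
      intro T a
      induction T using Finset.induction_on with
      | empty => simp [hz']
      | insert b T hb ih => rw [Finset.sum_insert hb, Finset.sum_insert hb, hadd', ih, Algebra.smul_def, hsmul']
    rw [e1]
    apply Finset.sum_congr rfl
    intro s _
    rw [e2, Finset.mul_sum]
    apply Finset.sum_congr rfl
    intro s' _
    rw [map_mul, mul_assoc]
  -- an index with non-zero coordinate of one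
  obtain ⟨i0, hi0⟩ : ∃ i, e.repr 1 i ≠ 0 := by
    by_contra hcon
    push Not at hcon
    have h1 := e.sum_repr (1 : K)
    simp only [hcon, zero_smul, Finset.sum_const_zero] at h1
    exact zero_ne_one h1
  let P : ι → MvPolynomial (ι ⊕ ι) F := fun i =>
    ∑ s, ∑ s', X s * X s' * MvPolynomial.C (Algebra.trace F K (e i * B (β s) (β s')))
  have hPev : ∀ i (x : ι ⊕ ι → F), (∀ j, x j ^ q = x j) →
      eval x (P i) = Algebra.trace F K (e i * B (∑ s, x s • β s) (∑ s, x s • β s)) := by
    intro i x hx
    rw [hsum, Finset.mul_sum, map_sum, map_sum]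
    apply Finset.sum_congr rfl
    intro s _
    rw [Finset.mul_sum, map_sum, map_sum]
    apply Finset.sum_congr rfl
    intro s' _
    rw [map_mul, map_mul, eval_X, eval_X, eval_C, hx, mul_left_comm, C.tr_smul]
  have hPdeg : ∀ i, (P i).totalDegree ≤ 2 := by
    intro i
    apply totalDegree_finsetSum_le
    intro s _
    apply totalDegree_finsetSum_le
    intro s' _
    refine (totalDegree_mul _ _).trans ?_
    rw [totalDegree_C]
    refine (Nat.add_le_add_right (totalDegree_mul _ _) 0).trans ?_
    rw [totalDegree_X, totalDegree_X]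
  obtain ⟨x, hx0, hx, hxP⟩ := cw C.hF (Finset.univ.erase i0) P (by
    intro i _ x hx
    rw [hPev i x hx, ← C.tr_bar, mul_pow, he, ← hsymm]) (by
    intro i _
    rw [hPev i 0 (fun j => zero_pow_q C.hF)]
    simp [hz]) (by
    refine lt_of_le_of_lt (Finset.sum_le_sum fun i _ => hPdeg i) ?_
    rw [Finset.sum_const, Finset.card_erase_of_mem (Finset.mem_univ _), Finset.card_univ, Fintype.card_sum, smul_eq_mul]
    have : 0 < Fintype.card ι := Fintype.card_pos_iff.2 ⟨i0⟩
    omega)
  obtain ⟨a, ha⟩ : ∃ a, a = ∑ s, x s • β s := ⟨_, rfl⟩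
  refine ⟨a, ?_, ?_⟩
  · intro h0
    apply hx0
    have hli := e.linearIndependent
    rw [Fintype.linearIndependent_iff] at hli
    have h1 : a = (∑ i, x (Sum.inl i) • e i) + algebraMap F K th * ∑ i, x (Sum.inr i) • e i := by
      rw [ha, Fintype.sum_sum_type, Finset.mul_sum]
      congr 1
      apply Finset.sum_congr rfl
      intro i _
      change _ • (algebraMap F K th * e i) = _
      rw [mul_smul_comm]
    have hr : ∀ z : ι → F, (∀ i, z i ^ q = z i) → (∑ i, z i • e i) ^ Q = ∑ i, z i • e i := by
      intro z hz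
      rw [sum_pow_q C.hK]
      apply Finset.sum_congr rfl
      intro i _
      rw [Algebra.smul_def, mul_pow, C.bar_alg, hz, he]
    have h2 := hr _ (fun i => hx (Sum.inl i))
    have h3 := hr _ (fun i => hx (Sum.inr i))
    rw [h1] at h0
    have h4 := congrArg (· ^ Q) h0
    simp only [C.bar_add, mul_pow, h2, h3, C.bar_zero, C.bar_alg] at h4
    have h5 : (algebraMap F K th - algebraMap F K (th ^ q)) * (∑ i, x (Sum.inr i) • e i) = 0 := by
      linear_combination h0 - h4
    have h6 : algebraMap F K th - algebraMap F K (th ^ q) ≠ 0 := by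
      intro h
      apply hth
      rw [← map_sub] at h
      have := (map_eq_zero _).1 h
      linear_combination -this
    have h7 := (mul_eq_zero.1 h5).resolve_left h6
    rw [h7, mul_zero, add_zero] at h0
    funext s
    rcases s with i | i
    · exact hli _ h0 i
    · exact hli _ h7 i
  · have h1 : ∀ i, i ≠ i0 → Algebra.trace F K (e i * B a a) = 0 := by
      intro i hi
      rw [ha, ← hPev i x hx]
      exact hxP i (Finset.mem_erase.2 ⟨hi, Finset.mem_univ _⟩)
    have h2 : Algebra.trace F K (e i0 * B a a) = 0 := by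
      have h3 := htr a
      have h4 : B a a = ∑ i, algebraMap F K (e.repr 1 i) * (e i * B a a) := by
        conv_lhs => rw [← one_mul (B a a), ← e.sum_repr (1 : K), Finset.sum_mul]
        apply Finset.sum_congr rfl
        intro i _
        rw [Algebra.smul_def, mul_assoc]
      rw [h4, map_sum, Finset.sum_eq_single i0] at h3
      · rw [C.tr_smul] at h3
        exact (mul_eq_zero.1 h3).resolve_left hi0
      · intro i _ hi
        rw [C.tr_smul, h1 i hi, mul_zero]
      · intro h
        exact absurd (Finset.mem_univ _) h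
    apply C.tr_nd
    intro l
    rw [← e.sum_repr l, Finset.sum_mul, map_sum]
    apply Finset.sum_eq_zero
    intro i _
    rw [smul_mul_assoc, map_smul]
    by_cases hi : i = i0
    · rw [hi, h2, smul_zero]
    · rw [h1 i hi, smul_zero]

end Cfsg.Agent.UCth
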