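import Mathlib
import Cfsg.Agent.UCth.CW
import Cfsg.Agent.USub.XT

set_option autoImplicit false
set_option linter.unusedSectionVars false
set_option linter.unusedVariables false
set_option linter.style.haveILetI false

/-!
The `K`-hermitian form and elements of `SU` attached to it.
-/

namespace Cfsg.Agent.UCth

open scoped Matrix
open Module Cfsg.Agent.Uni

section unip

variable {F : Type*} [Field F] [Fintype F] {q n : ℕ}

theorem det_one_of_nilpotent {M : Matrix (Fin n) (Fin n) F} (hM : IsNilpotent (M - 1)) : M.det = 1 := by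
  obtain ⟨p, hp⟩ := CharP.exists F
  have hpp : Fact p.Prime := ⟨CharP.char_is_prime F p⟩
  obtain ⟨m, hm⟩ := hM
  have h1 : (M - 1) ^ p ^ m = 0 := by
    have : m ≤ p ^ m := (Nat.lt_pow_self hpp.1.one_lt).le
    exact pow_eq_zero_of_le this hm
  have h2 : M ^ p ^ m = 1 := by
    rcases isEmpty_or_nonempty (Fin n) with hE | hN
    · exact Subsingleton.elim _ _
    have hch : CharP (Matrix (Fin n) (Fin n) F) p := inferInstance
    have h4 : ((M - 1) + 1) ^ p ^ m = (M - 1) ^ p ^ m + 1 ^ p ^ m :=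
      add_pow_char_pow_of_commute _ _ (Commute.one_right _)
    rw [sub_add_cancel, h1, one_pow, zero_add] at h4
    exact h4
  have h3 : M.det ^ p ^ m = 1 := by rw [← Matrix.det_pow, h2, Matrix.det_one]
  have h4 : (M.det - 1) ^ p ^ m = 0 := by
    rw [sub_pow_char_pow, h3, one_pow, sub_self]
  exact sub_eq_zero.1 (pow_eq_zero_iff (pow_ne_zero _ hpp.1.ne_zero) |>.1 h4)

/-- Unipotent isometries are in `SU`. -/
theorem exists_of_unip (N : (Fin n → F) →ₗ[F] (Fin n → F)) (hN : IsNilpotent N)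
    (hp : ∀ x y, hermForm n F q (x + N x) (y + N y) = hermForm n F q x y) :
    ∃ g : SU n F q, ∀ x, act g x = x + N x := by
  have hM : ∀ x, (LinearMap.toMatrix' (LinearMap.id + N)) *ᵥ x = x + N x := by
    intro x
    rw [← Matrix.toLin'_apply, Matrix.toLin'_toMatrix']; rfl
  have hP : Pres q (LinearMap.toMatrix' (LinearMap.id + N)) := by
    intro u v
    rw [hM, hM, hp]
  refine ⟨mkSU _ hP (det_one_of_nilpotent ?_), fun x => by rw [act_def, mkSU_coe, hM]⟩
  have h1 : LinearMap.toMatrix' (LinearMap.id + N) - 1 = LinearMap.toMatrix' N := by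
    rw [map_add, LinearMap.toMatrix'_id, add_sub_cancel_left]
  rw [h1]
  obtain ⟨m, hm⟩ := hN
  refine ⟨m, ?_⟩
  have h2 : LinearMap.toMatrix' N ^ m = LinearMap.toMatrix' (N ^ m) := by
    have := map_pow (LinearMap.toMatrixAlgEquiv' : _ ≃ₐ[F] Matrix (Fin n) (Fin n) F) N m
    exact this.symm
  rw [h2, hm, map_zero]

end unip

variable {F : Type*} [Field F] [Fintype F] {q n Q : ℕ} {K : Type*} [Field K] [Fintype K] [Algebra F K]
  [Module K (Fin n → F)] [IsScalarTower F K (Fin n → F)]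

/-- The `K`-form with trace the standard form. -/
structure Hm (F : Type*) [Field F] [Fintype F] (q n Q : ℕ) (K : Type*) [Field K] [Fintype K] [Algebra F K]
    [Module K (Fin n → F)] where
  C : Cf F K q Q
  H : (Fin n → F) → (Fin n → F) → K
  tr : ∀ x y, Algebra.trace F K (H x y) = hermForm n F q x y
  add : ∀ x y z, H (x + y) z = H x z + H y z
  smul : ∀ (k : K) x y, H (k • x) y = k * H x y
  symm : ∀ x y, H x y ^ Q = H y x

namespace Hm

variable (h : Hm F q n Q K)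

theorem add' (x y z : Fin n → F) : h.H x (y + z) = h.H x y + h.H x z := by
  rw [← h.C.bar_inj, h.symm, h.add, h.C.bar_add, h.symm, h.symm]

theorem smul' (k : K) (x y : Fin n → F) : h.H x (k • y) = k ^ Q * h.H x y := by
  rw [← h.C.bar_inj, h.symm, h.smul, mul_pow, h.C.bar_bar, h.symm]

theorem zero_left (x : Fin n → F) : h.H 0 x = 0 := by
  have := h.smul 0 0 x
  rwa [zero_smul, zero_mul] at this

theorem zero_right (x : Fin n → F) : h.H x 0 = 0 := by
  rw [← h.symm, h.zero_left, h.C.bar_zero]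

theorem neg_left (x y : Fin n → F) : h.H (-x) y = - h.H x y := by
  rw [← neg_one_smul K x, h.smul]; ring

theorem neg_right (x y : Fin n → F) : h.H x (-y) = - h.H x y := by
  rw [← h.symm, h.neg_left, h.C.bar_neg, h.symm]

theorem sub_left (x y z : Fin n → F) : h.H (x - y) z = h.H x z - h.H y z := by
  rw [sub_eq_add_neg, h.add, h.neg_left, sub_eq_add_neg]

theorem sub_right (x y z : Fin n → F) : h.H x (y - z) = h.H x y - h.H x z := by
  rw [sub_eq_add_neg, h.add', h.neg_right, sub_eq_add_neg]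

theorem self_real (x : Fin n → F) : h.H x x ^ Q = h.H x x := h.symm x x

theorem fsmul (c : F) (x y : Fin n → F) : h.H (c • x) y = algebraMap F K c * h.H x y := by
  rw [← algebraMap_smul K c x, h.smul]

theorem nd {x : Fin n → F} (hx : ∀ y, h.H x y = 0) : x = 0 := by
  apply hermForm_nondeg h.C.hF
  intro y
  rw [← h.tr, hx, map_zero]

theorem exists_ne {x : Fin n → F} (hx : x ≠ 0) : ∃ y, h.H x y ≠ 0 := by
  by_contra hcon
  push Not at hcon
  exact hx (h.nd hcon)

theorem eq_zero_comm {x y : Fin n → F} : h.H x y = 0 ↔ h.H y x = 0 := by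
  rw [← h.symm y x, h.C.bar_eq_zero]

/-- `H(·, v)` as a linear form -/
def lin (v : Fin n → F) : (Fin n → F) →ₗ[K] K where
  toFun x := h.H x v
  map_add' x y := h.add x y v
  map_smul' k x := h.smul k x v

theorem lin_apply (v x : Fin n → F) : h.lin v x = h.H x v := rfl

/-- preserving `H` implies preserving the form -/
theorem pres_of {N : (Fin n → F) → (Fin n → F)} (hN : ∀ x y, h.H (N x) (N y) = h.H x y) (x y : Fin n → F) :
    hermForm n F q (N x) (N y) = hermForm n F q x y := by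
  rw [← h.tr, hN, h.tr]

/-- `K`-linear elements. -/
def IsK (K : Type*) [Field K] [Module K (Fin n → F)] (g : SU n F q) : Prop := ∀ (k : K) x, act g (k • x) = k • act g x

/-- `K`-transvections. -/
theorem exists_tv {v : Fin n → F} (hv : h.H v v = 0) {l : K} (hl : l ^ Q = -l) :
    ∃ g : SU n F q, IsK K g ∧ ∀ x, act g x = x + (l * h.H x v) • v := by
  let N : (Fin n → F) →ₗ[K] (Fin n → F) := (l • h.lin v).smulRight v
  have hN : ∀ x, N x = (l * h.H x v) • v := fun x => rfl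
  obtain ⟨g, hg⟩ := exists_of_unip (q := q) (N.restrictScalars F) ⟨2, by
    refine LinearMap.ext fun x => ?_
    rw [pow_two]
    change N (N x) = 0
    rw [hN (N x), hN x, h.smul, hv, mul_zero, mul_zero, zero_smul]⟩ (by
    apply h.pres_of (N := fun x => x + N x)
    intro x y
    rw [hN, hN, h.add, h.add', h.add', h.smul, h.smul', h.smul', h.smul, hv, mul_pow, hl, h.symm]
    ring)
  refine ⟨g, ?_, hg⟩
  intro k x
  rw [hg, hg]
  change k • x + N (k • x) = k • (x + N x)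
  rw [map_smul, smul_add]

/-- `K`-Siegel elements. -/
theorem exists_sg {v u : Fin n → F} (hv : h.H v v = 0) (huv : h.H u v = 0) {s : K}
    (hs : s + s ^ Q = -h.H u u) :
    ∃ g : SU n F q, IsK K g ∧ ∀ x, act g x = x + (h.H x v • u - h.H x u • v + (s * h.H x v) • v) := by
  let N : (Fin n → F) →ₗ[K] (Fin n → F) := (h.lin v).smulRight u - (h.lin u).smulRight v + (s • h.lin v).smulRight v
  have hN : ∀ x, N x = h.H x v • u - h.H x u • v + (s * h.H x v) • v := fun x => rfl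
  have hvu : h.H v u = 0 := h.eq_zero_comm.1 huv
  have hNv : ∀ x, h.H (N x) v = 0 := by
    intro x
    rw [hN, h.add, h.sub_left, h.smul, h.smul, h.smul, huv, hv]; ring
  have hNN : ∀ x, N (N x) = (-(h.H x v) * h.H u u) • v := by
    intro x
    rw [hN (N x), hNv, hN x, h.add, h.sub_left, h.smul, h.smul, h.smul, hvu]
    module
  obtain ⟨g, hg⟩ := exists_of_unip (q := q) (N.restrictScalars F) ⟨3, by
    refine LinearMap.ext fun x => ?_
    rw [pow_succ, pow_two]
    change N (N (N x)) = 0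
    rw [hNN, hNv]
    module⟩ (by
    apply h.pres_of (N := fun x => x + N x)
    intro x y
    rw [hN, hN]
    simp only [h.add, h.add', h.sub_left, h.sub_right, h.smul, h.smul', hv, huv, hvu, mul_pow]
    rw [← h.symm y v, ← h.symm y u]
    linear_combination (h.H x v * h.H y v ^ Q) * hs)
  refine ⟨g, ?_, hg⟩
  intro k x
  rw [hg, hg]
  change k • x + N (k • x) = k • (x + N x)
  rw [map_smul, smul_add]

theorem fin_dimK (h : Hm F q n Q K) : FiniteDimensional K (Fin n → F) :=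
  Module.Finite.of_restrictScalars_finite F K (Fin n → F)

/-- Isotropic partner. -/
theorem partner {v : Fin n → F} (hv0 : v ≠ 0) (hv : h.H v v = 0) : ∃ v', h.H v v' = 1 ∧ h.H v' v' = 0 := by
  obtain ⟨y, hy⟩ := h.exists_ne hv0
  obtain ⟨y₁, hy₁⟩ : ∃ y₁, y₁ = ((h.H v y)⁻¹ ^ Q) • y := ⟨_, rfl⟩
  have e1 : h.H v y₁ = 1 := by rw [hy₁, h.smul', h.C.bar_bar, inv_mul_cancel₀ hy]
  have e2 : h.H y₁ v = 1 := by rw [← h.symm, e1, one_pow]
  obtain ⟨s, hs⟩ := exists_trace_eq (F := K) (q := Q) h.C.hK (c := -h.H y₁ y₁) (by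
    rw [h.C.bar_neg, h.self_real])
  refine ⟨y₁ + s • v, ?_, ?_⟩
  · rw [h.add', h.smul', hv, e1]; ring
  · rw [h.add, h.add', h.add', h.smul, h.smul, h.smul', h.smul', hv, e1, e2]
    linear_combination hs

/-- hyperbolic pairs -/
structure HP (v v' : Fin n → F) : Prop where
  vv : h.H v v = 0
  vv' : h.H v v' = 1
  v'v' : h.H v' v' = 0

variable {h}

theorem HP.v'v {v v' : Fin n → F} (hp : h.HP v v') : h.H v' v = 1 := by rw [← h.symm, hp.vv', one_pow]

theorem HP.symm {v v' : Fin n → F} (hp : h.HP v v') : h.HP v' v := ⟨hp.v'v', hp.v'v, hp.vv⟩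

theorem HP.ne {v v' : Fin n → F} (hp : h.HP v v') : v ≠ 0 := by
  rintro rfl
  have := hp.vv'
  rw [h.zero_left] at this
  exact zero_ne_one this

/-- projection to the orthogonal of a hyperbolic pair -/
theorem HP.proj {v v' : Fin n → F} (hp : h.HP v v') (y : Fin n → F) :
    ∃ y₁, h.H y₁ v = 0 ∧ h.H y₁ v' = 0 ∧ ∀ x, h.H x v = 0 → h.H x v' = 0 → h.H x y₁ = h.H x y := by
  refine ⟨y - h.H y v' • v - h.H y v • v', ?_, ?_, ?_⟩
  · rw [h.sub_left, h.sub_left, h.smul, h.smul, hp.vv, hp.v'v]; ring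
  · rw [h.sub_left, h.sub_left, h.smul, h.smul, hp.v'v', hp.vv']; ring
  · intro x hx hx'
    rw [h.sub_right, h.sub_right, h.smul', h.smul', hx, hx']; ring

/-- an isotropic vector not orthogonal to `x` -/
theorem HP.exists_iso {v v' : Fin n → F} (hp : h.HP v v') {x : Fin n → F} (hx : x ≠ 0) :
    ∃ y, h.H y y = 0 ∧ h.H x y ≠ 0 := by
  by_cases h1 : h.H x v = 0
  · by_cases h2 : h.H x v' = 0
    · obtain ⟨y, hy⟩ := h.exists_ne hx
      obtain ⟨y₁, e1, e2, e3⟩ := hp.proj y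
      have e1' := h.eq_zero_comm.1 e1
      have e2' := h.eq_zero_comm.1 e2
      obtain ⟨s, hs⟩ := exists_trace_eq (F := K) (q := Q) h.C.hK (c := -h.H y₁ y₁) (by
        rw [h.C.bar_neg, h.self_real])
      refine ⟨y₁ + v + s • v', ?_, ?_⟩
      · simp only [h.add, h.add', h.smul, h.smul', hp.vv, hp.vv', hp.v'v', hp.v'v, e1, e2, e1', e2']
        linear_combination hs
      · rw [h.add', h.add', h.smul', h1, h2, e3 x h1 h2]
        simpa using hy
    · exact ⟨v', hp.v'v', h2⟩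
  · exact ⟨v, hp.vv, h1⟩

/-- The same inside the orthogonal of a hyperbolic pair. -/
theorem HP.exists_iso2 {v v' z z' : Fin n → F} (hp : h.HP v v') (hz : h.HP z z')
    (h1 : h.H z v = 0) (h2 : h.H z v' = 0) (h3 : h.H z' v = 0) (h4 : h.H z' v' = 0)
    {x : Fin n → F} (hx : x ≠ 0) (hxv : h.H x v = 0) (hxv' : h.H x v' = 0) :
    ∃ y, h.H y y = 0 ∧ h.H y v = 0 ∧ h.H y v' = 0 ∧ h.H x y ≠ 0 := by
  by_cases e1 : h.H x z = 0
  · by_cases e2 : h.H x z' = 0
    · obtain ⟨y, hy⟩ := h.exists_ne hx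
      obtain ⟨y₁, f1, f2, f3⟩ := hp.proj y
      obtain ⟨y₂, g1, g2, g3⟩ := hz.proj y₁
      have hv1 : h.H v y₂ = 0 := by
        rw [g3 v (h.eq_zero_comm.1 h1) (h.eq_zero_comm.1 h3)]
        exact h.eq_zero_comm.1 f1
      have hv2 : h.H v' y₂ = 0 := by
        rw [g3 v' (h.eq_zero_comm.1 h2) (h.eq_zero_comm.1 h4)]
        exact h.eq_zero_comm.1 f2
      have g1' := h.eq_zero_comm.1 g1
      have g2' := h.eq_zero_comm.1 g2
      obtain ⟨s, hs⟩ := exists_trace_eq (F := K) (q := Q) h.C.hK (c := -h.H y₂ y₂) (by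
        rw [h.C.bar_neg, h.self_real])
      refine ⟨y₂ + z + s • z', ?_, ?_, ?_, ?_⟩
      · simp only [h.add, h.add', h.smul, h.smul', hz.vv, hz.vv', hz.v'v', hz.v'v, g1, g2, g1', g2']
        linear_combination hs
      · rw [h.add, h.add, h.smul, h1, h3, h.eq_zero_comm.1 hv1]; ring
      · rw [h.add, h.add, h.smul, h2, h4, h.eq_zero_comm.1 hv2]; ring
      · rw [h.add', h.add', h.smul', e1, e2, g3 x e1 e2, f3 x hxv hxv']
        simpa using hy
    · exact ⟨z', hz.v'v', h3, h4, e2⟩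
  · exact ⟨z, hz.vv, h1, h2, e1⟩

theorem exists_ker (h : Hm F q n Q K) {m : ℕ} (w : Fin m → Fin n → F) (hm : m < finrank K (Fin n → F)) :
    ∃ x : Fin n → F, x ≠ 0 ∧ ∀ i, h.H x (w i) = 0 := by
  have := h.fin_dimK
  have h1 := LinearMap.ker_ne_bot_of_finrank_lt (f := LinearMap.pi fun i => h.lin (w i)) (by
    rw [Module.finrank_fin_fun]; exact hm)
  obtain ⟨x, hx, hx0⟩ := Submodule.exists_mem_ne_zero_of_ne_bot h1
  refine ⟨x, hx0, fun i => ?_⟩
  exact congrFun (LinearMap.mem_ker.1 hx) i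

/-- combine two orthogonal vectors to an isotropic one -/
theorem exists_comb (h : Hm F q n Q K) {p p' : Fin n → F} (hp : h.H p p ≠ 0) (hp' : h.H p' p' ≠ 0)
    (hpp : h.H p' p = 0) : ∃ x : K, h.H (p + x • p') (p + x • p') = 0 := by
  obtain ⟨x, hx⟩ := exists_norm_eq (F := K) (q := Q) h.C.hK (c := -(h.H p p / h.H p' p')) (by
    rw [h.C.bar_neg, div_pow, h.self_real, h.self_real])
  have hpp' := h.eq_zero_comm.1 hpp
  refine ⟨x, ?_⟩
  rw [h.add, h.add', h.add', h.smul, h.smul, h.smul', h.smul', hpp, hpp']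
  have : x * x ^ Q = -(h.H p p / h.H p' p') := by rw [← hx, pow_succ, mul_comm]
  have h3 : x * (x ^ Q * h.H p' p') = - h.H p p := by
    rw [← mul_assoc, this]; field_simp
  rw [h3]; ring

theorem exists_isotropic (h : Hm F q n Q K) (hd : 2 ≤ finrank K (Fin n → F)) :
    ∃ v : Fin n → F, v ≠ 0 ∧ h.H v v = 0 := by
  obtain ⟨p, hp0, -⟩ := h.exists_ker (m := 0) Fin.elim0 (by omega)
  by_cases hp : h.H p p = 0
  · exact ⟨p, hp0, hp⟩
  obtain ⟨p', hp'0, hp'⟩ := h.exists_ker (m := 1) (fun _ => p) (by omega)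
  by_cases hpp : h.H p' p' = 0
  · exact ⟨p', hp'0, hpp⟩
  obtain ⟨x, hx⟩ := h.exists_comb hp hpp (hp' 0)
  refine ⟨p + x • p', ?_, hx⟩
  intro h0
  have := congrArg (fun z => h.H z p) h0
  simp only [h.add, h.smul, hp' 0, mul_zero, add_zero, h.zero_left] at this
  exact hp this

theorem HP.exists_second {v v' : Fin n → F} (hp : h.HP v v') (hd : 4 ≤ finrank K (Fin n → F)) :
    ∃ z z', h.HP z z' ∧ h.H z v = 0 ∧ h.H z v' = 0 ∧ h.H z' v = 0 ∧ h.H z' v' = 0 := by
  obtain ⟨z, hz0, hz, hzv, hzv'⟩ : ∃ z, z ≠ 0 ∧ h.H z z = 0 ∧ h.H z v = 0 ∧ h.H z v' = 0 := by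
    obtain ⟨p, hp0, hp1⟩ := h.exists_ker ![v, v'] (by omega)
    have a1 : h.H p v = 0 := hp1 0
    have a2 : h.H p v' = 0 := hp1 1
    by_cases hpi : h.H p p = 0
    · exact ⟨p, hp0, hpi, a1, a2⟩
    obtain ⟨p', hp'0, hp'⟩ := h.exists_ker ![v, v', p] (by omega)
    have b1 : h.H p' v = 0 := hp' 0
    have b2 : h.H p' v' = 0 := hp' 1
    have b3 : h.H p' p = 0 := hp' 2
    by_cases hpp : h.H p' p' = 0
    · exact ⟨p', hp'0, hpp, b1, b2⟩
    obtain ⟨x, hx⟩ := h.exists_comb hpi hpp b3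
    refine ⟨p + x • p', ?_, hx, ?_, ?_⟩
    · intro h0
      have := congrArg (fun z => h.H z p) h0
      simp only [h.add, h.smul, b3, mul_zero, add_zero, h.zero_left] at this
      exact hpi this
    · rw [h.add, h.smul, a1, b1]; ring
    · rw [h.add, h.smul, a2, b2]; ring
  obtain ⟨y, hy1, hy2⟩ := h.partner hz0 hz
  obtain ⟨y₁, e1, e2, e3⟩ := hp.proj y
  have e4 : h.H z y₁ = 1 := by rw [e3 z hzv hzv', hy1]
  have e5 : h.H y₁ z = 1 := by rw [← h.symm, e4, one_pow]
  obtain ⟨s, hs⟩ := exists_trace_eq (F := K) (q := Q) h.C.hK (c := -h.H y₁ y₁) (by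
    rw [h.C.bar_neg, h.self_real])
  refine ⟨z, y₁ + s • z, ⟨hz, ?_, ?_⟩, hzv, hzv', ?_, ?_⟩
  · rw [h.add', h.smul', hz, e4]; ring
  · rw [h.add, h.add', h.add', h.smul, h.smul, h.smul', h.smul', hz, e4, e5]
    linear_combination hs
  · rw [h.add, h.smul, e1, hzv]; ring
  · rw [h.add, h.smul, e2, hzv']; ring

/-- expansion when the dimension is two -/
theorem HP.expand {v v' : Fin n → F} (hp : h.HP v v') (hd : finrank K (Fin n → F) = 2) (x : Fin n → F) :
    x = h.H x v' • v + h.H x v • v' := by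
  have := h.fin_dimK
  have hli : LinearIndependent K ![v, v'] := by
    rw [LinearIndependent.pair_iff]
    intro a b hab
    have h1 := congrArg (fun z => h.H z v) hab
    have h2 := congrArg (fun z => h.H z v') hab
    simp only [h.add, h.smul, hp.vv, hp.v'v, hp.vv', hp.v'v', h.zero_left] at h1 h2
    constructor
    · linear_combination h2
    · linear_combination h1
  have hsp := hli.span_eq_top_of_card_eq_finrank (by rw [Fintype.card_fin, hd])
  have hx : x ∈ Submodule.span K (Set.range ![v, v']) := by rw [hsp]; exact Submodule.mem_top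
  rw [Matrix.range_cons, Matrix.range_cons, Matrix.range_empty, Set.union_empty, Set.singleton_union,
    Submodule.mem_span_pair] at hx
  obtain ⟨a, b, hab⟩ := hx
  have h1 : h.H x v' = a := by rw [← hab, h.add, h.smul, h.smul, hp.vv', hp.v'v']; ring
  have h2 : h.H x v = b := by rw [← hab, h.add, h.smul, h.smul, hp.vv, hp.v'v]; ring
  rw [h1, h2, hab]

/-- `K`-linear isometries give elements of `GU`. -/
theorem gu_of_klin (h : Hm F q n Q K) (N : (Fin n → F) →ₗ[K] (Fin n → F))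
    (hN : ∀ x y, h.H (N x) (N y) = h.H x y) :
    ∃ g : GU n F q, ∀ x, ((g : GL (Fin n) F) : Matrix (Fin n) (Fin n) F) *ᵥ x = N x := by
  have hM : ∀ x, (LinearMap.toMatrix' (N.restrictScalars F)) *ᵥ x = N x := by
    intro x
    rw [← Matrix.toLin'_apply, Matrix.toLin'_toMatrix']; rfl
  have hP : Pres q (LinearMap.toMatrix' (N.restrictScalars F)) := by
    intro u v
    rw [hM, hM, h.pres_of hN]
  exact ⟨mkGU h.C.hF _ hP, fun x => by rw [mkGU_coe, hM]⟩

theorem su_of_gu {g : GU n F q} (hg : ((g : GL (Fin n) F) : Matrix (Fin n) (Fin n) F).det = 1) :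
    ∃ g' : SU n F q, ∀ x, act g' x = ((g : GL (Fin n) F) : Matrix (Fin n) (Fin n) F) *ᵥ x :=
  ⟨mkSU (((g : GL (Fin n) F) : Matrix (Fin n) (Fin n) F)) (fun u v => mem_GU.1 g.2 u v) hg, fun x => rfl⟩

/-- the diagonal element -/
theorem HP.exists_D {v v' : Fin n → F} (hp : h.HP v v') {y : K} (hy : y ≠ 0) :
    ∃ N : (Fin n → F) →ₗ[K] (Fin n → F), (∀ a b, h.H (N a) (N b) = h.H a b) ∧ N v = y • v ∧
      ∀ u, h.H u v = 0 → h.H u v' = 0 → N u = u := by
  have hyQ : y ^ Q ≠ 0 := pow_ne_zero _ hy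
  let N : (Fin n → F) →ₗ[K] (Fin n → F) := LinearMap.id + ((y - 1) • h.lin v').smulRight v +
    (((y ^ Q)⁻¹ - 1) • h.lin v).smulRight v'
  have hN : ∀ x, N x = x + ((y - 1) * h.H x v') • v + (((y ^ Q)⁻¹ - 1) * h.H x v) • v' := fun x => rfl
  refine ⟨N, ?_, ?_, ?_⟩
  · intro a b
    rw [hN, hN]
    simp only [h.add, h.add', h.smul, h.smul', hp.vv, hp.vv', hp.v'v', hp.v'v, mul_pow, h.C.bar_sub, one_pow,
      inv_pow, h.C.bar_bar]
    rw [h.symm b v, h.symm b v']
    field_simp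
    ring
  · rw [hN, hp.vv, hp.vv']
    module
  · intro u h1 h2
    rw [hN, h1, h2]
    module

theorem HP.torus1 {v v' : Fin n → F} (hp : h.HP v v') {y : K} (hy : y ≠ 0) :
    ∃ g : SU n F q, IsK K g ∧ act g v = (y ^ (q + 1)) • v := by
  obtain ⟨N, hN1, hN2, -⟩ := hp.exists_D hy
  obtain ⟨g, hg⟩ := h.gu_of_klin N hN1
  have hpow : ∀ (m : ℕ) x, (((g ^ m : GU n F q) : GL (Fin n) F) : Matrix (Fin n) (Fin n) F) *ᵥ x = (N ^ m) x := by
    intro m
    induction m with
    | zero => intro x; simp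
    | succ m ih =>
      intro x
      rw [pow_succ, pow_succ, Module.End.mul_apply, ← hg, ← ih, Subgroup.coe_mul, gl_mul_mulVec]
  have hdet : (((g ^ (q + 1) : GU n F q) : GL (Fin n) F) : Matrix (Fin n) (Fin n) F).det = 1 := by
    have h1 : (((g ^ (q + 1) : GU n F q) : GL (Fin n) F) : Matrix (Fin n) (Fin n) F) =
        (((g : GL (Fin n) F) : Matrix (Fin n) (Fin n) F)) ^ (q + 1) := by
      push_cast
      rfl
    rw [h1, Matrix.det_pow]
    exact Pres.det_norm h.C.hF (fun u v => mem_GU.1 g.2 u v)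
  obtain ⟨g', hg'⟩ := su_of_gu hdet
  refine ⟨g', ?_, ?_⟩
  · intro k x
    rw [hg', hg', hpow, hpow, map_smul]
  · rw [hg', hpow]
    have h2 : ∀ m : ℕ, (N ^ m) v = (y ^ m) • v := by
      intro m
      induction m with
      | zero => simp
      | succ m ih => rw [pow_succ, Module.End.mul_apply, hN2, map_smul, ih, smul_smul, pow_succ, mul_comm]
    exact h2 _

theorem HP.torus2 {v v' z z' : Fin n → F} (hp : h.HP v v') (hz : h.HP z z')
    (h1 : h.H z v = 0) (h2 : h.H z v' = 0) (h3 : h.H z' v = 0) (h4 : h.H z' v' = 0) {y : K} (hy : y ≠ 0) :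
    ∃ g : SU n F q, IsK K g ∧ act g v = y • v := by
  obtain ⟨N, hN1, hN2, hN3⟩ := hp.exists_D hy
  obtain ⟨d, hd⟩ := h.gu_of_klin N hN1
  have h1' := h.eq_zero_comm.1 h1
  have h2' := h.eq_zero_comm.1 h2
  have h3' := h.eq_zero_comm.1 h3
  have h4' := h.eq_zero_comm.1 h4
  let S : (Fin n → F) →ₗ[K] (Fin n → F) := LinearMap.id - (h.lin (v' - z')).smulRight (v - z) -
    (h.lin (v - z)).smulRight (v' - z')
  have hS : ∀ x, S x = x - h.H x (v' - z') • (v - z) - h.H x (v - z) • (v' - z') := fun x => rfl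
  have hpp : h.H (v - z) (v - z) = 0 := by
    rw [h.sub_left, h.sub_right, h.sub_right, hp.vv, hz.vv, h1, h1']; ring
  have hpp' : h.H (v - z) (v' - z') = 2 := by
    rw [h.sub_left, h.sub_right, h.sub_right, hp.vv', hz.vv', h2, h3']; ring
  have hp'p : h.H (v' - z') (v - z) = 2 := by
    rw [h.sub_left, h.sub_right, h.sub_right, hp.v'v, hz.v'v, h2', h3]; ring
  have hp'p' : h.H (v' - z') (v' - z') = 0 := by
    rw [h.sub_left, h.sub_right, h.sub_right, hp.v'v', hz.v'v', h4, h4']; ring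
  obtain ⟨s, hs⟩ := h.gu_of_klin S (by
    intro a b
    obtain ⟨p, hpe⟩ : ∃ p, p = v - z := ⟨_, rfl⟩
    obtain ⟨p', hpe'⟩ : ∃ p', p' = v' - z' := ⟨_, rfl⟩
    rw [hS, hS]
    simp only [← hpe, ← hpe'] at hpp hpp' hp'p hp'p' ⊢
    simp only [h.sub_left, h.sub_right, h.smul, h.smul', hpp, hpp', hp'p, hp'p']
    rw [h.symm b p', h.symm b p]
    ring)
  have hSv : S v = z := by
    rw [hS, h.sub_right, h.sub_right, hp.vv', hp.vv, h3', h1']
    module
  have hSz : S z = v := by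
    rw [hS, h.sub_right, h.sub_right, hz.vv', hz.vv, h2, h1]
    module
  -- the commutator
  obtain ⟨c, hc⟩ : ∃ c : GU n F q, c = d * s * d⁻¹ * s⁻¹ := ⟨_, rfl⟩
  have hdet : ((c : GL (Fin n) F) : Matrix (Fin n) (Fin n) F).det = 1 := by
    have e1 := congrArg (fun x => (detHom h.C.hF n x)) hc
    simp only [map_mul, map_inv] at e1
    have e2 : detHom h.C.hF n c = 1 := by
      rw [e1]
      rw [mul_comm (detHom h.C.hF n d)]
      group
    rw [← detHom_coe h.C.hF, e2]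
    rfl
  obtain ⟨g', hg'⟩ := su_of_gu hdet
  have hdi : ∀ x, N ((((d⁻¹ : GU n F q) : GL (Fin n) F) : Matrix (Fin n) (Fin n) F) *ᵥ x) = x := by
    intro x
    rw [← hd, Subgroup.coe_inv, gl_mulVec_inv]
  have hdi' : ∀ x, (((d⁻¹ : GU n F q) : GL (Fin n) F) : Matrix (Fin n) (Fin n) F) *ᵥ (N x) = x := by
    intro x
    rw [← hd, Subgroup.coe_inv, gl_inv_mulVec]
  have hsi : ∀ x, S ((((s⁻¹ : GU n F q) : GL (Fin n) F) : Matrix (Fin n) (Fin n) F) *ᵥ x) = x := by
    intro x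
    rw [← hs, Subgroup.coe_inv, gl_mulVec_inv]
  have hsi' : ∀ x, (((s⁻¹ : GU n F q) : GL (Fin n) F) : Matrix (Fin n) (Fin n) F) *ᵥ (S x) = x := by
    intro x
    rw [← hs, Subgroup.coe_inv, gl_inv_mulVec]
  have hcx : ∀ x, ((c : GL (Fin n) F) : Matrix (Fin n) (Fin n) F) *ᵥ x =
      N (S ((((d⁻¹ : GU n F q) : GL (Fin n) F) : Matrix (Fin n) (Fin n) F) *ᵥ
        ((((s⁻¹ : GU n F q) : GL (Fin n) F) : Matrix (Fin n) (Fin n) F) *ᵥ x))) := by
    intro x
    rw [hc, Subgroup.coe_mul, Subgroup.coe_mul, Subgroup.coe_mul, gl_mul_mulVec, gl_mul_mulVec, gl_mul_mulVec, hs, hd]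
  refine ⟨g', ?_, ?_⟩
  · intro k x
    rw [hg', hg', hcx, hcx]
    have e1 : (((s⁻¹ : GU n F q) : GL (Fin n) F) : Matrix (Fin n) (Fin n) F) *ᵥ (k • x) =
        k • (((s⁻¹ : GU n F q) : GL (Fin n) F) : Matrix (Fin n) (Fin n) F) *ᵥ x := by
      have : k • x = S (k • (((s⁻¹ : GU n F q) : GL (Fin n) F) : Matrix (Fin n) (Fin n) F) *ᵥ x) := by
        rw [map_smul, hsi]
      conv_lhs => rw [this]
      rw [hsi']
    have e2 : ∀ x, (((d⁻¹ : GU n F q) : GL (Fin n) F) : Matrix (Fin n) (Fin n) F) *ᵥ (k • x) =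
        k • (((d⁻¹ : GU n F q) : GL (Fin n) F) : Matrix (Fin n) (Fin n) F) *ᵥ x := by
      intro x
      have : k • x = N (k • (((d⁻¹ : GU n F q) : GL (Fin n) F) : Matrix (Fin n) (Fin n) F) *ᵥ x) := by
        rw [map_smul, hdi]
      conv_lhs => rw [this]
      rw [hdi']
    rw [e1, e2, map_smul, map_smul]
  · rw [hg', hcx]
    have e1 : (((s⁻¹ : GU n F q) : GL (Fin n) F) : Matrix (Fin n) (Fin n) F) *ᵥ v = z := by
      conv_lhs => rw [← hSz]
      rw [hsi']
    have e2 : (((d⁻¹ : GU n F q) : GL (Fin n) F) : Matrix (Fin n) (Fin n) F) *ᵥ z = z := by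
      conv_lhs => rw [← hN3 z h1 h2]
      rw [hdi']
    rw [e1, e2, hSz, hN2]

end Hm

end Cfsg.Agent.UCth
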