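import Mathlib
import Cfsg.Agent.UCth.Form

set_option autoImplicit false
set_option linter.unusedSectionVars false
set_option linter.unusedVariables false
set_option linter.style.haveILetI false

/-!
Pairs of conjugates of isotropic `K`-lines.
-/

namespace Cfsg.Agent.UCth

open scoped Matrix
open Module Cfsg.Agent.Uni Cfsg.Agent.USub

variable {F : Type*} [Field F] [Fintype F] {q n Q : ℕ} {K : Type*} [Field K] [Fintype K] [Algebra F K]
  [Module K (Fin n → F)] [IsScalarTower F K (Fin n → F)]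

theorem Cf.exists_two_skew (C : Cf F K q Q) {κ : K} (hκ : κ ≠ 0) (hκr : κ ^ Q = κ) :
    ∃ l₁ l₂ : K, l₁ ^ Q = -l₁ ∧ l₂ ^ Q = -l₂ ∧ Algebra.trace F K (l₁ * κ) = 0 ∧
      Algebra.trace F K (l₂ * κ) = 0 ∧ ∀ c d : F, c • l₁ + d • l₂ = 0 → c = 0 ∧ d = 0 := by
  classical
  have := C.fd
  obtain ⟨ι, hι, e, he⟩ := C.exists_basis
  obtain ⟨ε, hε0, hε⟩ := C.exists_eps
  obtain ⟨i0, hi0⟩ : ∃ i, Algebra.trace F K (e i * κ) ≠ 0 := by
    by_contra hcon
    push Not at hcon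
    apply hκ
    apply C.tr_nd
    intro l
    rw [← e.sum_repr l, Finset.sum_mul, map_sum]
    apply Finset.sum_eq_zero
    intro i _
    rw [smul_mul_assoc, map_smul, hcon, smul_zero]
  have hcard : Fintype.card ι = finrank F K := (Module.finrank_eq_card_basis e).symm
  have h3 : 3 ≤ Fintype.card ι := by
    rw [hcard]
    have h1 := C.hr.two_le
    have h2 := C.ho
    rcases Nat.lt_or_ge 2 (finrank F K) with h | h
    · exact h
    · have : finrank F K = 2 := by omega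
      rw [this] at h2
      exact absurd h2 (by decide)
  have h4 : 1 < (Finset.univ.erase i0).card := by
    rw [Finset.card_erase_of_mem (Finset.mem_univ _), Finset.card_univ]; omega
  obtain ⟨j, hj, k, hk, hjk⟩ := Finset.one_lt_card.1 h4
  have hj' : j ≠ i0 := Finset.ne_of_mem_erase hj
  have hk' : k ≠ i0 := Finset.ne_of_mem_erase hk
  have htr : ∀ i, Algebra.trace F K (e i * κ) ^ q = Algebra.trace F K (e i * κ) := by
    intro i
    rw [← C.tr_bar, mul_pow, he, hκr]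
  obtain ⟨τ, hτ⟩ : ∃ τ : ι → F, ∀ i, τ i = Algebra.trace F K (e i * κ) := ⟨_, fun i => rfl⟩
  have hτr : ∀ i, τ i ^ q = τ i := fun i => by rw [hτ]; exact htr i
  have hsk : ∀ i, (algebraMap F K ε * (algebraMap F K (τ i0) * e i - algebraMap F K (τ i) * e i0)) ^ Q =
      -(algebraMap F K ε * (algebraMap F K (τ i0) * e i - algebraMap F K (τ i) * e i0)) := by
    intro i
    rw [mul_pow, C.bar_sub, mul_pow, mul_pow, C.bar_alg, C.bar_alg, C.bar_alg, hτr, hτr, hε, he, he, map_neg]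
    ring
  have htz : ∀ i, Algebra.trace F K (algebraMap F K ε * (algebraMap F K (τ i0) * e i - algebraMap F K (τ i) * e i0) * κ) = 0 := by
    intro i
    have : algebraMap F K ε * (algebraMap F K (τ i0) * e i - algebraMap F K (τ i) * e i0) * κ =
      algebraMap F K ε * (algebraMap F K (τ i0) * (e i * κ) - algebraMap F K (τ i) * (e i0 * κ)) := by ring
    rw [this, C.tr_smul, map_sub, C.tr_smul, C.tr_smul, ← hτ, ← hτ]
    ring
  refine ⟨_, _, hsk j, hsk k, htz j, htz k, ?_⟩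
  intro c d hcd
  have h5 : algebraMap F K ε * (c • (algebraMap F K (τ i0) * e j - algebraMap F K (τ j) * e i0) +
      d • (algebraMap F K (τ i0) * e k - algebraMap F K (τ k) * e i0)) = 0 := by
    rw [← hcd, mul_add, mul_smul_comm, mul_smul_comm]
  have h6 := (mul_eq_zero.1 h5).resolve_left (by simpa using hε0)
  have h7 : c • (algebraMap F K (τ i0) * e j - algebraMap F K (τ j) * e i0) +
      d • (algebraMap F K (τ i0) * e k - algebraMap F K (τ k) * e i0) =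
      (c * τ i0) • e j + (d * τ i0) • e k + (-(c * τ j) - d * τ k) • e i0 := by
    simp only [← Algebra.smul_def]
    module
  rw [h7] at h6
  have h8 := congrArg (fun z => e.repr z j) h6
  have h9 := congrArg (fun z => e.repr z k) h6
  simp only [map_add, map_smul, Basis.repr_self, Finsupp.add_apply, Finsupp.smul_apply, Finsupp.single_apply,
    map_zero, Finsupp.zero_apply, smul_eq_mul, if_neg hjk.symm, if_neg hjk, if_neg (Ne.symm hj'), if_neg (Ne.symm hk'), if_true,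
    mul_one, mul_zero, add_zero, zero_add] at h8 h9
  have h0 : τ i0 ≠ 0 := by rw [hτ]; exact hi0
  exact ⟨(mul_eq_zero.1 h8).resolve_right h0, (mul_eq_zero.1 h9).resolve_right h0⟩

namespace Hm

variable {h : Hm F q n Q K}

/-- The pairing of `K v₁` with `g (K v₂)`. -/
def Phi (h : Hm F q n Q K) (g : SU n F q) (v₁ v₂ : Fin n → F) : K →ₗ[F] K where
  toFun b := h.H (act g (b • v₂)) v₁
  map_add' a b := by rw [add_smul, act_add, h.add]
  map_smul' c b := by rw [smul_assoc, act_smul, h.fsmul, RingHom.id_apply, Algebra.smul_def]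

theorem Phi_apply (g : SU n F q) (v₁ v₂ : Fin n → F) (b : K) : h.Phi g v₁ v₂ b = h.H (act g (b • v₂)) v₁ := rfl

theorem IsK.H {g : SU n F q} (hg : IsK K g) (x y : Fin n → F) : h.H (act g x) (act g y) = h.H x y := by
  rw [← sub_eq_zero]
  apply h.C.tr_nd
  intro k
  rw [mul_sub, map_sub, ← h.smul, ← h.smul, h.tr, h.tr, ← hg, act_form, sub_self]

theorem IsK.inv {g : SU n F q} (hg : IsK K g) : IsK K g⁻¹ := by
  intro k x
  rw [← act_inv_act g (k • act g⁻¹ x), hg, act_act_inv]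

theorem self_smul {v : Fin n → F} (hv : h.H v v = 0) (a b : K) : h.H (a • v) (b • v) = 0 := by
  rw [h.smul, h.smul', hv]; ring

/-- `Tr` criterion -/
theorem tr_crit {a : K} (ha : ∀ k, Algebra.trace F K (k * a ^ Q) = 0) (C : Cf F K q Q) : a = 0 :=
  C.bar_eq_zero.1 (C.tr_nd ha)

theorem lower_step {M : Subgroup (SU n F q)} (hM : ∀ g : SU n F q, IsK K g → g ∈ M) {g : SU n F q} (hg : g ∈ M)
    {v₁ v₂ : Fin n → F} (hv₁ : h.H v₁ v₁ = 0) (hv₂ : h.H v₂ v₂ = 0)
    (h2 : 2 ≤ finrank F (LinearMap.range (h.Phi g v₁ v₂)))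
    (hlt : finrank F (LinearMap.range (h.Phi g v₁ v₂)) < finrank F K) :
    ∃ g' ∈ M, 1 ≤ finrank F (LinearMap.range (h.Phi g' v₂ v₂)) ∧
      finrank F (LinearMap.range (h.Phi g' v₂ v₂)) < finrank F (LinearMap.range (h.Phi g v₁ v₂)) := by
  have := h.C.fd
  obtain ⟨l, hl, ⟨x₀, hx₀, hx0, hx₀'⟩, x, hx, y, hy, hxy⟩ := h.C.lower _ h2 hlt
  obtain ⟨t, htK, ht⟩ := h.exists_tv hv₁ hl
  have key : ∀ a b, Algebra.trace F K (a * (h.Phi (g⁻¹ * t * g) v₂ v₂ b) ^ Q) =
      - Algebra.trace F K (l * h.Phi g v₁ v₂ a * (h.Phi g v₁ v₂ b) ^ Q) := by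
    intro a b
    rw [Phi_apply, h.symm, ← h.smul, h.tr, act_mul, act_mul, ← act_form_left, ht]
    · rw [hermForm_add_right h.C.hF, act_form, ← h.tr, self_smul hv₂, map_zero, zero_add, ← h.tr, h.smul', mul_pow, hl,
        Phi_apply, Phi_apply, ← map_neg]
      congr 1
      ring
  refine ⟨g⁻¹ * t * g, M.mul_mem (M.mul_mem (M.inv_mem hg) (hM t htK)) hg, ?_, ?_⟩
  · obtain ⟨a, rfl⟩ := hx
    obtain ⟨b, rfl⟩ := hy
    rw [Nat.one_le_iff_ne_zero, Ne, Submodule.finrank_eq_zero, LinearMap.range_eq_bot]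
    intro h0
    have h1 := key a b
    rw [h0, LinearMap.zero_apply, h.C.bar_zero, mul_zero, map_zero] at h1
    exact hxy (neg_eq_zero.1 h1.symm)
  · have hle : LinearMap.ker (h.Phi g v₁ v₂) ≤ LinearMap.ker (h.Phi (g⁻¹ * t * g) v₂ v₂) := by
      intro b hb
      rw [LinearMap.mem_ker] at hb ⊢
      apply tr_crit _ h.C
      intro a
      rw [key, hb, h.C.bar_zero, mul_zero, map_zero, neg_zero]
    obtain ⟨b₀, hb₀⟩ := hx₀
    have hb1 : b₀ ∈ LinearMap.ker (h.Phi (g⁻¹ * t * g) v₂ v₂) := by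
      rw [LinearMap.mem_ker]
      apply tr_crit _ h.C
      intro a
      rw [key, hb₀]
      have h3 := hx₀' _ (LinearMap.mem_range_self (h.Phi g v₁ v₂) a)
      have h4 : Algebra.trace F K (l * h.Phi g v₁ v₂ a * x₀ ^ Q) ^ q = 0 := by
        rw [← h.C.tr_bar, mul_pow, mul_pow, h.C.bar_bar, hl]
        have : -l * h.Phi g v₁ v₂ a ^ Q * x₀ = -(l * x₀ * h.Phi g v₁ v₂ a ^ Q) := by ring
        rw [this, map_neg, h3, neg_zero]
      rw [(pow_q_eq_zero h.C.hF).1 h4, neg_zero]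
    have hb2 : b₀ ∉ LinearMap.ker (h.Phi g v₁ v₂) := by
      rw [LinearMap.mem_ker, hb₀]
      exact hx0
    have hlt' : LinearMap.ker (h.Phi g v₁ v₂) < LinearMap.ker (h.Phi (g⁻¹ * t * g) v₂ v₂) :=
      lt_of_le_of_ne hle (fun heq => hb2 (heq ▸ hb1))
    have h5 := Submodule.finrank_lt_finrank_of_lt hlt'
    have h6 := LinearMap.finrank_range_add_finrank_ker (h.Phi g v₁ v₂)
    have h7 := LinearMap.finrank_range_add_finrank_ker (h.Phi (g⁻¹ * t * g) v₂ v₂)
    omega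

theorem exists_rank_one {M : Subgroup (SU n F q)} (hM : ∀ g : SU n F q, IsK K g → g ∈ M) (e : ℕ) :
    ∀ {g : SU n F q} (hg : g ∈ M) {v₁ v₂ : Fin n → F} (hv₁ : h.H v₁ v₁ = 0) (hv₂ : h.H v₂ v₂ = 0)
    (he : finrank F (LinearMap.range (h.Phi g v₁ v₂)) = e) (h1 : 1 ≤ e) (hlt : e < finrank F K),
    ∃ g ∈ M, ∃ v₁ v₂ : Fin n → F, h.H v₁ v₁ = 0 ∧ h.H v₂ v₂ = 0 ∧
      finrank F (LinearMap.range (h.Phi g v₁ v₂)) = 1 := by
  induction e using Nat.strong_induction_on with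
  | _ e ih =>
    intro g hg v₁ v₂ hv₁ hv₂ he h1 hlt
    rcases Nat.eq_or_lt_of_le h1 with h2 | h2
    · exact ⟨g, hg, v₁, v₂, hv₁, hv₂, by omega⟩
    · obtain ⟨g', hg', h3, h4⟩ := lower_step hM hg hv₁ hv₂ (by omega) (by omega)
      exact ih _ (by omega) hg' hv₂ hv₂ rfl h3 (by omega)

theorem act_comm {t t' : SU n F q} {N : (Fin n → F) → (Fin n → F)}
    (hN : ∀ y, act t (act t' y) = act t' (act t y) + N y) (hN2 : ∀ y, N (act t' (act t y)) = N y) (x : Fin n → F) :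
    act (t * t' * t⁻¹ * t'⁻¹) x = x + N x := by
  obtain ⟨y, hy⟩ : ∃ y, x = act t' (act t y) := ⟨act t⁻¹ (act t'⁻¹ x), by rw [act_act_inv, act_act_inv]⟩
  rw [hy, hN2, ← hN, act_mul, act_mul, act_mul, act_inv_act, act_inv_act]

theorem exists_comm {M : Subgroup (SU n F q)} (hM : ∀ g : SU n F q, IsK K g → g ∈ M) {g : SU n F q} (hg : g ∈ M)
    {v₁ v₂ : Fin n → F} (hv₁ : h.H v₁ v₁ = 0) (hv₂ : h.H v₂ v₂ = 0)
    (h1 : finrank F (LinearMap.range (h.Phi g v₁ v₂)) = 1) :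
    ∃ (x₀ : K) (b : Fin n → F), x₀ ≠ 0 ∧ b ≠ 0 ∧ h.H b v₁ = 0 ∧ hermForm n F q b b = 0 ∧
      ∀ l : K, l ^ Q = -l → Algebra.trace F K (l * (x₀ * x₀ ^ Q)) = 0 →
      ∃ k ∈ M, ∀ x, act k x = x + (hermForm n F q x ((l * x₀) • v₁) • b - hermForm n F q x b • ((l * x₀) • v₁)) := by
  have := h.C.fd
  obtain ⟨⟨x₀, hx₀⟩, hx0, hx₀'⟩ := finrank_eq_one_iff'.1 h1
  have hx00 : x₀ ≠ 0 := fun h0 => hx0 (Subtype.ext h0)
  -- the functional
  obtain ⟨ℓ, hℓ⟩ : ∃ ℓ : K → F, ∀ b, h.Phi g v₁ v₂ b = ℓ b • x₀ := by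
    have : ∀ b, ∃ c : F, h.Phi g v₁ v₂ b = c • x₀ := by
      intro b
      obtain ⟨c, hc⟩ := hx₀' ⟨h.Phi g v₁ v₂ b, LinearMap.mem_range_self _ _⟩
      exact ⟨c, (congrArg Subtype.val hc).symm⟩
    exact ⟨fun b => (this b).choose, fun b => (this b).choose_spec⟩
  have hinj : ∀ c d : F, c • x₀ = d • x₀ → c = d := fun c d hcd => smul_left_injective F hx00 hcd
  let L : K →ₗ[F] F :=
    { toFun := ℓ
      map_add' := fun a b => by
        apply hinj
        rw [← hℓ, map_add, hℓ, hℓ, add_smul]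
      map_smul' := fun c a => by
        apply hinj
        rw [← hℓ, map_smul, hℓ, smul_smul]; rfl }
  have hnd := traceForm_nondegenerate F K
  obtain ⟨c₁, hc₁⟩ : ∃ c₁ : K, ∀ b, ℓ b = Algebra.trace F K (c₁ * b) := by
    refine ⟨((Algebra.traceForm F K).toDual hnd).symm L, fun b => ?_⟩
    rw [← Algebra.traceForm_apply, LinearMap.BilinForm.apply_toDual_symm_apply]
    rfl
  have hΦ : ∀ b, h.Phi g v₁ v₂ b = Algebra.trace F K (c₁ * b) • x₀ := fun b => by rw [hℓ, hc₁]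
  have hc0 : c₁ ≠ 0 := by
    intro h0
    have : LinearMap.range (h.Phi g v₁ v₂) = ⊥ := by
      rw [LinearMap.range_eq_bot]
      ext b
      rw [hΦ, h0, zero_mul, map_zero, zero_smul, LinearMap.zero_apply]
    rw [this, finrank_bot] at h1
    exact zero_ne_one h1
  -- the adjoint
  have hΨ : ∀ k : K, h.H (act g⁻¹ (k • v₁)) v₂ = Algebra.trace F K (k * x₀ ^ Q) • c₁ ^ Q := by
    intro k
    rw [← sub_eq_zero]
    apply tr_crit _ h.C
    intro b
    rw [h.C.bar_sub, h.symm, mul_sub, map_sub, ← h.smul, h.tr, ← act_form_left, ← h.tr, h.smul', ← Phi_apply, hΦ,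
      Algebra.smul_def, Algebra.smul_def, mul_pow, h.C.bar_alg, h.C.bar_bar, ← h.C.tr_bar, mul_pow, h.C.bar_bar]
    have e1 : k ^ Q * ((algebraMap F K) ((Algebra.trace F K) (c₁ * b)) * x₀) =
      (algebraMap F K) ((Algebra.trace F K) (c₁ * b)) * (k ^ Q * x₀) := by ring
    have e2 : b * ((algebraMap F K) ((Algebra.trace F K) (k ^ Q * x₀)) * c₁) =
      (algebraMap F K) ((Algebra.trace F K) (k ^ Q * x₀)) * (c₁ * b) := by ring
    rw [e1, e2, h.C.tr_smul, h.C.tr_smul]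
    ring
  have hκ : c₁ * c₁ ^ Q ≠ 0 := mul_ne_zero hc0 (pow_ne_zero _ hc0)
  obtain ⟨m, m', hm, -, hm2, -, hm3⟩ := h.C.exists_two_skew hκ (by rw [mul_pow, h.C.bar_bar]; ring)
  have hm0 : m ≠ 0 := by
    rintro rfl
    have := (hm3 1 0 (by simp)).1
    exact one_ne_zero this
  obtain ⟨t', ht'K, ht'⟩ := h.exists_tv hv₂ hm
  obtain ⟨b, hb⟩ : ∃ b, b = act g ((m * c₁ ^ Q) • v₂) := ⟨_, rfl⟩
  have hv20 : v₂ ≠ 0 := by
    rintro rfl
    have : LinearMap.range (h.Phi g v₁ 0) = ⊥ := by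
      rw [LinearMap.range_eq_bot]
      ext b
      rw [Phi_apply, smul_zero, act_zero, h.zero_left, LinearMap.zero_apply]
    rw [this, finrank_bot] at h1
    exact zero_ne_one h1
  have hbv : h.H b v₁ = 0 := by
    rw [hb, ← Phi_apply, hΦ]
    have : c₁ * (m * c₁ ^ Q) = m * (c₁ * c₁ ^ Q) := by ring
    rw [this, hm2, zero_smul]
  have hbb : hermForm n F q b b = 0 := by
    rw [hb, act_form, ← h.tr, self_smul hv₂, map_zero]
  refine ⟨x₀, b, hx00, ?_, hbv, hbb, ?_⟩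
  · rw [hb]
    apply act_ne_zero
    exact smul_ne_zero (mul_ne_zero hm0 (pow_ne_zero _ hc0)) hv20
  intro l hl hl2
  obtain ⟨t, htK, ht⟩ := h.exists_tv hv₁ hl
  obtain ⟨a, ha⟩ : ∃ a, a = (l * x₀) • v₁ := ⟨_, rfl⟩
  obtain ⟨s, hs⟩ : ∃ s, s = g * t' * g⁻¹ := ⟨_, rfl⟩
  have hsM : s ∈ M := by rw [hs]; exact M.mul_mem (M.mul_mem hg (hM t' ht'K)) (M.inv_mem hg)
  have hsx : ∀ x, act s x = x + act g ((m * h.H (act g⁻¹ x) v₂) • v₂) := by
    intro x
    rw [hs, act_mul, act_mul, ht', act_add, act_act_inv]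
  have htM : t ∈ M := hM t htK
  -- A A'
  have h3 : ∀ x, (l * h.H (act g ((m * h.H (act g⁻¹ x) v₂) • v₂)) v₁) • v₁ = -(hermForm n F q x b • a) := by
    intro x
    rw [← Phi_apply, hΦ, ha]
    have e1 : hermForm n F q x b = - Algebra.trace F K (c₁ * (m * h.H (act g⁻¹ x) v₂)) := by
      have e2 := act_form_left g⁻¹ x ((m * c₁ ^ Q) • v₂)
      rw [inv_inv] at e2
      rw [hb, ← e2, ← h.tr, h.smul', mul_pow, hm, h.C.bar_bar, ← map_neg]
      congr 1
      ring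
    rw [e1, neg_smul, neg_neg, mul_smul_comm, smul_assoc]
  -- A' A
  have h4 : ∀ x, act g ((m * h.H (act g⁻¹ ((l * h.H x v₁) • v₁)) v₂) • v₂) = -(hermForm n F q x a • b) := by
    intro x
    rw [hΨ, hb, ha]
    have e1 : hermForm n F q x ((l * x₀) • v₁) = - Algebra.trace F K (l * h.H x v₁ * x₀ ^ Q) := by
      rw [← h.tr, h.smul', mul_pow, hl, ← map_neg]
      congr 1
      ring
    rw [e1, neg_smul, neg_neg, ← act_smul]
    congr 1
    rw [mul_smul_comm, smul_assoc]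
  have hga : h.H (act g⁻¹ a) v₂ = 0 := by
    rw [ha, hΨ, mul_assoc, hl2, zero_smul]
  have hN0 : ∀ y, hermForm n F q (act g ((m * h.H (act g⁻¹ y) v₂) • v₂)) a = 0 := by
    intro y
    rw [act_form_left, ← h.tr, h.smul, h.eq_zero_comm.1 hga, mul_zero, map_zero]
  have hN1 : ∀ y, hermForm n F q (act g ((m * h.H (act g⁻¹ y) v₂) • v₂)) b = 0 := by
    intro y
    rw [hb, act_form, ← h.tr, self_smul hv₂, map_zero]
  have hN2 : ∀ k : K, hermForm n F q (k • v₁) a = 0 := by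
    intro k
    rw [ha, ← h.tr, self_smul hv₁, map_zero]
  have hN3 : ∀ k : K, hermForm n F q (k • v₁) b = 0 := by
    intro k
    rw [← h.tr, h.smul, h.eq_zero_comm.1 hbv, mul_zero, map_zero]
  refine ⟨t * s * t⁻¹ * s⁻¹, M.mul_mem (M.mul_mem (M.mul_mem htM hsM) (M.inv_mem htM)) (M.inv_mem hsM), ?_⟩
  rw [← ha]
  apply act_comm (N := fun x => hermForm n F q x a • b - hermForm n F q x b • a)
  · intro y
    rw [ht, hsx, hsx, ht, h.add, mul_add, add_smul, h3, act_add, h.add, mul_add, add_smul, act_add, h4]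
    abel
  · intro y
    rw [hsx, ht]
    simp only [act_add, h.add, mul_add, add_smul, h4, hermForm_add_left, hN0, hN1, hN2, hN3, hermForm_neg_left,
      hermForm_smul_left, hbb]
    have hba : hermForm n F q b a = 0 := by
      rw [ha, ← h.tr, h.smul', hbv, mul_zero, map_zero]
    rw [hba]
    simp

end Hm

end Cfsg.Agent.UCth
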