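import Mathlib
import Cfsg.Agent.UCth.Rank

set_option autoImplicit false
set_option linter.unusedSectionVars false
set_option linter.unusedVariables false
set_option linter.style.haveILetI false

/-!
The main dichotomy.
-/

namespace Cfsg.Agent.UCth

open scoped Matrix
open Module Cfsg.Agent.Uni Cfsg.Agent.USub

variable {F : Type*} [Field F] [Fintype F] {q n Q : ℕ} {K : Type*} [Field K] [Fintype K] [Algebra F K]
  [Module K (Fin n → F)] [IsScalarTower F K (Fin n → F)]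

namespace Hm

variable {h : Hm F q n Q K}

/-- The element attached to `a, β`. -/
def Hasn (h : Hm F q n Q K) (M : Subgroup (SU n F q)) (v : Fin n → F) (a β : K) : Prop :=
  ∃ k ∈ M, ∀ x, act k x = x + (Algebra.trace F K (a ^ Q * h.H x v) • β - Algebra.trace F K (β ^ Q * h.H x v) • a) • v

theorem exists_n {M : Subgroup (SU n F q)} (hM : ∀ g : SU n F q, IsK K g → g ∈ M) {g : SU n F q} (hg : g ∈ M)
    {v₁ v₂ : Fin n → F} (hv₁ : h.H v₁ v₁ = 0) (hv₂ : h.H v₂ v₂ = 0)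
    (h1 : finrank F (LinearMap.range (h.Phi g v₁ v₂)) = 1) :
    ∃ a β : K, β ≠ 0 ∧ (∀ c : F, a ≠ c • β) ∧ h.Hasn M v₁ a β := by
  have := h.C.fd
  obtain ⟨x₀, b, hx0, hb0, hbv, hbb, hk⟩ := exists_comm hM hg hv₁ hv₂ h1
  have hv10 : v₁ ≠ 0 := by
    rintro rfl
    have : LinearMap.range (h.Phi g 0 v₂) = ⊥ := by
      rw [LinearMap.range_eq_bot]
      ext b
      rw [Phi_apply, h.zero_right, LinearMap.zero_apply]
    rw [this, finrank_bot] at h1
    exact zero_ne_one h1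
  have hκ : x₀ * x₀ ^ Q ≠ 0 := mul_ne_zero hx0 (pow_ne_zero _ hx0)
  obtain ⟨l₁, l₂, hl₁, hl₂, ht₁, ht₂, hli⟩ := h.C.exists_two_skew hκ (by rw [mul_pow, h.C.bar_bar]; ring)
  by_cases hbK : ∃ b' : K, b = b' • v₁
  · obtain ⟨b', hb'⟩ := hbK
    have hb'0 : b' ≠ 0 := by
      rintro rfl
      exact hb0 (by rw [hb', zero_smul])
    obtain ⟨l, hl, hlt, hln⟩ : ∃ l : K, l ^ Q = -l ∧ Algebra.trace F K (l * (x₀ * x₀ ^ Q)) = 0 ∧
        ∀ c : F, l * x₀ ≠ c • b' := by
      by_contra hcon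
      push Not at hcon
      obtain ⟨c₁, hc₁⟩ := hcon l₁ hl₁ ht₁
      obtain ⟨c₂, hc₂⟩ := hcon l₂ hl₂ ht₂
      have h2 : (c₂ • l₁ + (-c₁) • l₂) * x₀ = 0 := by
        rw [add_mul, smul_mul_assoc, smul_mul_assoc, hc₁, hc₂, smul_smul, smul_smul, ← add_smul]
        rw [show c₂ * c₁ + -c₁ * c₂ = 0 by ring, zero_smul]
      have h3 := hli _ _ ((mul_eq_zero.1 h2).resolve_right hx0)
      have h4 : c₁ = 0 := by simpa using h3.2
      rw [h4, zero_smul] at hc₁
      have h5 : l₁ = 0 := (mul_eq_zero.1 hc₁).resolve_right hx0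
      have h6 := hli 1 0 (by rw [h5]; simp)
      exact one_ne_zero h6.1
    obtain ⟨k, hkM, hkx⟩ := hk l hl hlt
    refine ⟨l * x₀, b', hb'0, hln, k, hkM, fun x => ?_⟩
    rw [hkx, hb', ← h.tr, ← h.tr, h.smul', h.smul', sub_smul, smul_assoc, smul_assoc]
  · -- commutator with a Siegel element
    obtain ⟨v', hv'1, hv'2⟩ := h.partner hv10 hv₁
    have hp : h.HP v₁ v' := ⟨hv₁, hv'1, hv'2⟩
    obtain ⟨b₁, hb₁⟩ : ∃ b₁, b₁ = b - h.H b v' • v₁ := ⟨_, rfl⟩
    have hb₁0 : b₁ ≠ 0 := by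
      intro h0
      apply hbK
      exact ⟨h.H b v', by rw [h0] at hb₁; exact (sub_eq_zero.1 hb₁.symm)⟩
    obtain ⟨y, hy⟩ := h.exists_ne hb₁0
    obtain ⟨y₁, e1, e2, e3⟩ := hp.proj y
    have hb₁v : h.H b₁ v₁ = 0 := by rw [hb₁, h.sub_left, h.smul, hbv, hv₁]; ring
    have hb₁v' : h.H b₁ v' = 0 := by rw [hb₁, h.sub_left, h.smul, hv'1]; ring
    have hby : h.H b y₁ ≠ 0 := by
      have h2 : h.H b₁ y₁ = h.H b y₁ := by
        rw [hb₁, h.sub_left, h.smul, h.eq_zero_comm.1 e1]; ring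
      rw [← h2, e3 b₁ hb₁v hb₁v']
      exact hy
    have hl₁0 : l₁ ≠ 0 := by
      intro h0
      have h6 := hli 1 0 (by rw [h0]; simp)
      exact one_ne_zero h6.1
    obtain ⟨k, hkM, hkx⟩ := hk l₁ hl₁ ht₁
    obtain ⟨a', ha'⟩ : ∃ a', a' = l₁ * x₀ := ⟨_, rfl⟩
    have ha'0 : a' ≠ 0 := by rw [ha']; exact mul_ne_zero hl₁0 hx0
    rw [← ha'] at hkx
    -- choose β
    obtain ⟨β, hβ⟩ : ∃ β : K, ∀ c : F, β ≠ c • a' := by
      by_contra hcon
      push Not at hcon
      have h2 : finrank F K ≤ 1 := finrank_le_one a' (fun w => by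
        obtain ⟨c, hc⟩ := hcon w
        exact ⟨c, hc.symm⟩)
      have := h.C.hr.two_le
      omega
    have hβ0 : β ≠ 0 := fun h0 => hβ 0 (by rw [h0, zero_smul])
    obtain ⟨u, hu⟩ : ∃ u, u = ((β / h.H b y₁) ^ Q) • y₁ := ⟨_, rfl⟩
    have hbu : h.H b u = β := by
      rw [hu, h.smul', h.C.bar_bar, div_mul_cancel₀ _ hby]
    have huv : h.H u v₁ = 0 := by rw [hu, h.smul, e1, mul_zero]
    obtain ⟨s, hs⟩ := exists_trace_eq (F := K) (q := Q) h.C.hK (c := -h.H u u) (by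
      rw [h.C.bar_neg, h.self_real])
    obtain ⟨E, hEK, hE⟩ := h.exists_sg hv₁ huv hs
    have hEM := hM E hEK
    have hub : h.H u b = β ^ Q := by rw [← h.symm, hbu]
    have hab : h.H (a' • v₁) v₁ = 0 := by rw [h.smul, hv₁, mul_zero]
    have hNv : ∀ y, h.H (hermForm n F q y (a' • v₁) • b - hermForm n F q y b • (a' • v₁)) v₁ = 0 := by
      intro y
      rw [h.sub_left, h.fsmul, h.fsmul, hbv, hab]; ring
    refine ⟨a', β, hβ0, ?_, k * E * k⁻¹ * E⁻¹, M.mul_mem (M.mul_mem (M.mul_mem hkM hEM) (M.inv_mem hkM)) (M.inv_mem hEM), ?_⟩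
    · intro c hc
      have hc0 : c ≠ 0 := by
        rintro rfl
        rw [zero_smul] at hc
        exact ha'0 hc
      exact hβ c⁻¹ (by rw [hc, smul_smul, inv_mul_cancel₀ hc0, one_smul])
    · apply act_comm (N := fun x => (Algebra.trace F K (a' ^ Q * h.H x v₁) • β -
        Algebra.trace F K (β ^ Q * h.H x v₁) • a') • v₁)
      · intro y
        rw [hE, hkx]
        obtain ⟨N, hN⟩ : ∃ N, N = hermForm n F q y (a' • v₁) • b - hermForm n F q y b • (a' • v₁) := ⟨_, rfl⟩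
        rw [hkx, hE, ← hN]
        have f1 : h.H (y + N) v₁ = h.H y v₁ := by rw [h.add, hN, hNv, add_zero]
        have f2 : h.H (y + N) u = h.H y u + algebraMap F K (hermForm n F q y (a' • v₁)) * β := by
          rw [h.add, hN, h.sub_left, h.fsmul, h.fsmul, hbu, h.smul, h.eq_zero_comm.1 huv]; ring
        have f3 : hermForm n F q (y + (h.H y v₁ • u - h.H y u • v₁ + (s * h.H y v₁) • v₁)) (a' • v₁) =
            hermForm n F q y (a' • v₁) := by
          rw [← h.tr, ← h.tr]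
          congr 1
          simp only [h.add, h.sub_left, h.smul, h.smul', hv₁, huv]
          ring
        have f4 : hermForm n F q (y + (h.H y v₁ • u - h.H y u • v₁ + (s * h.H y v₁) • v₁)) b =
            hermForm n F q y b + Algebra.trace F K (β ^ Q * h.H y v₁) := by
          rw [← h.tr, ← h.tr, ← map_add]
          congr 1
          simp only [h.add, h.sub_left, h.smul, h.eq_zero_comm.1 hbv, hub]
          ring
        have f5 : hermForm n F q y (a' • v₁) = Algebra.trace F K (a' ^ Q * h.H y v₁) := by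
          rw [← h.tr, h.smul']
        rw [f1, f2, f3, f4, ← f5, hN, ← algebraMap_smul K (hermForm n F q y (a' • v₁)) β, smul_eq_mul]
        have f6 : ∀ (c : F) (w : Fin n → F), c • w = (algebraMap F K c) • w := fun c w => (algebraMap_smul K c w).symm
        simp only [f6, Algebra.smul_def, map_add]
        module
      · intro y
        have f1 : h.H (act E (act k y)) v₁ = h.H y v₁ := by
          have f2 : act E v₁ = v₁ := by
            rw [hE, hv₁, h.eq_zero_comm.1 huv]; module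
          conv_lhs => rw [← f2]
          rw [hEK.H, hkx, h.add, hNv, add_zero]
        rw [f1]

/-- coefficient functions of elements of `M` with centre line `K v`. -/
def Zg (h : Hm F q n Q K) (M : Subgroup (SU n F q)) {v : Fin n → F} (hv : h.H v v = 0) :
    AddSubgroup ((K ≃ₐ[F] K) → K) where
  carrier := {c | ∃ k ∈ M, ∀ x, act k x = x + (∑ ρ, c ρ * ρ (h.H x v)) • v}
  add_mem' := by
    rintro c c' ⟨k, hk, hkx⟩ ⟨k', hk', hkx'⟩
    refine ⟨k * k', M.mul_mem hk hk', fun x => ?_⟩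
    rw [act_mul, hkx', hkx, h.add, h.smul, hv, mul_zero, add_zero, add_assoc, ← add_smul]
    congr 2
    rw [← Finset.sum_add_distrib]
    apply Finset.sum_congr rfl
    intro ρ _
    rw [Pi.add_apply]; ring
  zero_mem' := ⟨1, M.one_mem, fun x => by simp [act_one]⟩
  neg_mem' := by
    rintro c ⟨k, hk, hkx⟩
    refine ⟨k⁻¹, M.inv_mem hk, fun x => ?_⟩
    have h1 : act k (x + (∑ ρ, (-c) ρ * ρ (h.H x v)) • v) = x := by
      rw [hkx, h.add, h.smul, hv, mul_zero, add_zero, add_assoc, ← add_smul]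
      have : (∑ ρ, (-c) ρ * ρ (h.H x v)) + ∑ ρ, c ρ * ρ (h.H x v) = 0 := by
        rw [← Finset.sum_add_distrib]
        apply Finset.sum_eq_zero
        intro ρ _
        rw [Pi.neg_apply]; ring
      rw [this, zero_smul, add_zero]
    conv_lhs => rw [← h1]
    rw [act_inv_act]

theorem mem_Zg {M : Subgroup (SU n F q)} {v : Fin n → F} {hv : h.H v v = 0} {c : (K ≃ₐ[F] K) → K} :
    c ∈ h.Zg M hv ↔ ∃ k ∈ M, ∀ x, act k x = x + (∑ ρ, c ρ * ρ (h.H x v)) • v := Iff.rfl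

/-- the size condition -/
def Cond (q r d : ℕ) : Prop := (d = 2 ∧ (q + 1) ^ 2 < q ^ r + 1) ∨ 4 ≤ d

theorem exists_pow_ne (C : Cf F K q Q) {m : ℕ} (hm : 0 < m) (hm2 : m < Q + 1) :
    ∃ y : K, y ≠ 0 ∧ y ^ ((Q - 1) * m) ≠ 1 := by
  classical
  by_contra hcon
  push Not at hcon
  have hQ : 2 ≤ Q := two_le_q C.hK
  have h1 : Fintype.card Kˣ = (Q - 1) * (Q + 1) := by
    rw [Fintype.card_units, C.hK]
    obtain ⟨a, rfl⟩ := Nat.exists_eq_add_of_le hQ
    have : 2 + a - 1 = 1 + a := by omega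
    rw [this]
    have : (2 + a) ^ 2 = (1 + a) * (2 + a + 1) + 1 := by ring
    rw [this, Nat.add_sub_cancel]
  have h2 : ∀ y : Kˣ, y ^ ((Q - 1) * m) = 1 := by
    intro y
    apply Units.ext
    push_cast
    exact hcon y y.ne_zero
  have h3 := IsCyclic.card_pow_eq_one_le (α := Kˣ) (n := (Q - 1) * m) (Nat.mul_pos (by omega) hm)
  rw [Finset.filter_true_of_mem (fun y _ => h2 y), Finset.card_univ, h1] at h3
  have h4 := Nat.le_of_mul_le_mul_left h3 (by omega)
  omega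

theorem not_range (C : Cf F K q Q) {t : K} (ht : t ^ (Q + 1) = 1) (ht2 : t ^ (q + 1) ≠ 1) :
    t ∉ Set.range (algebraMap F K) := by
  rintro ⟨c, rfl⟩
  apply ht2
  rw [pow_succ, C.bar_alg] at ht
  rw [pow_succ, ← map_pow]
  exact ht

theorem torus_real {v v' : Fin n → F} (hp : h.HP v v') {w : K} (hw : w ^ Q = w) (hw0 : w ≠ 0) :
    ∃ g : SU n F q, IsK K g ∧ act g v = w • v := by
  obtain ⟨y, hy⟩ := exists_norm_eq (F := K) (q := Q) h.C.hK hw
  have hdvd : q + 1 ∣ Q + 1 := by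
    have := Odd.nat_add_dvd_pow_add_pow q 1 h.C.ho
    rwa [one_pow, ← h.C.hQ] at this
  obtain ⟨d, hd⟩ := hdvd
  have hy0 : y ≠ 0 := by
    rintro rfl
    rw [zero_pow (by omega)] at hy
    exact hw0 hy.symm
  obtain ⟨g, hg, hgv⟩ := hp.torus1 (pow_ne_zero d hy0)
  refine ⟨g, hg, ?_⟩
  rw [hgv, ← pow_mul, mul_comm d, ← hd, hy]

theorem torus_big {v v' : Fin n → F} (hp : h.HP v v')
    (hc : Cond q (finrank F K) (finrank K (Fin n → F))) :
    ∃ w : K, (∃ g : SU n F q, IsK K g ∧ act g v = w • v) ∧ w ≠ 0 ∧ w / w ^ Q ∉ Set.range (algebraMap F K) := by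
  have hq := two_le_q h.C.hF
  have hQ : 2 ≤ Q := two_le_q h.C.hK
  have hQ2 : q + 1 < Q + 1 := by
    rw [h.C.hQ]
    have h1 : q ^ 1 < q ^ finrank F K := Nat.pow_lt_pow_right (by omega) h.C.hr.one_lt
    rw [pow_one] at h1
    omega
  have key : ∀ (m : ℕ) (y : K), y ≠ 0 → y ^ ((Q - 1) * (m * (q + 1))) ≠ 1 →
      y ^ m / (y ^ m) ^ Q ∉ Set.range (algebraMap F K) := by
    intro m y hy0 hy
    have hym : y ^ m ≠ 0 := pow_ne_zero _ hy0
    apply not_range h.C
    · have h1 : (y ^ m) ^ (Q + 1) = ((y ^ m) ^ Q) ^ (Q + 1) := by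
        rw [pow_succ, pow_succ ((y ^ m) ^ Q), h.C.bar_bar]; ring
      rw [div_pow, ← h1, div_self (pow_ne_zero _ hym)]
    · intro h1
      apply hy
      have h2 : (y ^ m) ^ Q = (y ^ m) ^ (Q - 1) * y ^ m := by
        rw [← pow_succ, Nat.sub_add_cancel (by omega)]
      rw [h2, div_mul_cancel_right₀ hym, inv_pow, inv_eq_one, ← pow_mul, ← pow_mul] at h1
      rw [← h1]
      congr 1
      ring
  rcases hc with ⟨-, hc⟩ | hc
  · obtain ⟨y, hy0, hy⟩ := exists_pow_ne h.C (m := (q + 1) * (q + 1)) (by positivity) (by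
      rw [h.C.hQ, ← pow_two]; exact hc)
    exact ⟨y ^ (q + 1), hp.torus1 hy0, pow_ne_zero _ hy0, key _ y hy0 hy⟩
  · obtain ⟨y, hy0, hy⟩ := exists_pow_ne h.C (m := q + 1) (by omega) hQ2
    obtain ⟨z, z', hz, h1, h2, h3, h4⟩ := hp.exists_second hc
    refine ⟨y, hp.torus2 hz h1 h2 h3 h4 hy0, hy0, ?_⟩
    have := key 1 y hy0 (by rwa [one_mul])
    rwa [pow_one] at this

theorem xt_of_n {M : Subgroup (SU n F q)} (hM : ∀ g : SU n F q, IsK K g → g ∈ M)
    (hcond : Cond q (finrank F K) (finrank K (Fin n → F)))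
    {v : Fin n → F} (hv0 : v ≠ 0) (hv : h.H v v = 0) {a β : K} (hβ : β ≠ 0) (ha : ∀ c : F, a ≠ c • β)
    (hn : h.Hasn M v a β) (y : K) : y • v ∈ XT M := by
  have := h.C.fd
  obtain ⟨v', hv'1, hv'2⟩ := h.partner hv0 hv
  have hp : h.HP v v' := ⟨hv, hv'1, hv'2⟩
  refine ⟨by rw [← h.tr, self_smul hv, map_zero], ?_⟩
  intro c hc g hg
  -- membership in the coefficient group
  have hmem : (fun ρ : K ≃ₐ[F] K => algebraMap F K c * y * ρ (y ^ Q)) ∈ h.Zg M hv := by
    have hz : a / β ∉ Set.range (algebraMap F K) := by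
      rintro ⟨d, hd⟩
      apply ha d
      rw [Algebra.smul_def, hd, div_mul_cancel₀ _ hβ]
    apply h.C.zfull (h.Zg M hv) {w | ∃ g : SU n F q, IsK K g ∧ act g v = w • v}
      (n := fun ρ => β * ρ (a ^ Q) - a * ρ (β ^ Q))
    · rintro w ⟨g, hgK, hgv⟩ c ⟨k, hk, hkx⟩
      have hgM := hM g hgK
      refine ⟨g * k * g⁻¹, M.mul_mem (M.mul_mem hgM hk) (M.inv_mem hgM), fun x => ?_⟩
      rw [act_mul, act_mul, hkx, act_add, act_act_inv, hgK, hgv, smul_smul, Finset.sum_mul]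
      have h1 : h.H (act g⁻¹ x) v = w ^ Q * h.H x v := by
        rw [← hgK.H, act_act_inv, hgv, h.smul']
      congr 2
      apply Finset.sum_congr rfl
      intro ρ _
      rw [h1, map_mul]; ring
    · intro w hw hw0
      exact torus_real hp hw hw0
    · obtain ⟨w, hw1, hw2, hw3⟩ := torus_big hp hcond
      exact ⟨w, hw1, hw2, hw3⟩
    · intro l
      have hl : (l - l ^ Q) ^ Q = -(l - l ^ Q) := by rw [h.C.bar_sub, h.C.bar_bar]; ring
      obtain ⟨t, htK, ht⟩ := h.exists_tv hv hl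
      refine ⟨t, hM t htK, fun x => ?_⟩
      rw [ht]
      congr 2
      rw [Finset.sum_eq_single 1]
      · simp [EE]
      · intro ρ _ hρ
        have : ρ⁻¹ ≠ 1 := by rwa [Ne, inv_eq_one]
        simp [EE, hρ, this]
      · intro h1
        exact absurd (Finset.mem_univ _) h1
    · obtain ⟨k, hk, hkx⟩ := hn
      refine ⟨k, hk, fun x => ?_⟩
      rw [hkx]
      congr 2
      rw [Algebra.smul_def, Algebra.smul_def, h.C.tr_sum, h.C.tr_sum, Finset.sum_mul, Finset.sum_mul,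
        ← Finset.sum_sub_distrib]
      apply Finset.sum_congr rfl
      intro ρ _
      rw [map_mul, map_mul]; ring
    · intro ρ hρ h0
      have h1 : ρ ((a / β) ^ Q) = a / β := by
        have hρβ : ρ (β ^ Q) ≠ 0 := by rw [Ne, map_eq_zero]; exact pow_ne_zero _ hβ
        rw [div_pow, map_div₀, div_eq_div_iff hρβ hβ]
        linear_combination h0
      have h2 : ρ (a / β) = (a / β) ^ Q := by
        conv_rhs => rw [← h1, ← map_pow, h.C.bar_bar]
      have h3 : (ρ * ρ) (a / β) = a / β := by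
        change ρ (ρ (a / β)) = _
        rw [h2, h1]
      have h4 := h.C.eq_one_of_fix hz h3
      have hgal : IsGalois F K := inferInstance
      have h5 : ρ ^ finrank F K = 1 := by
        rw [← IsGalois.card_aut_eq_finrank F K]
        exact pow_card_eq_one'
      obtain ⟨m, hm⟩ := h.C.ho
      rw [hm, pow_succ, pow_mul, pow_two, h4, one_pow, one_mul] at h5
      exact hρ h5
    · intro ρ
      have hinv : ∀ k, ρ⁻¹ (ρ k) = k := fun k => ρ.symm_apply_apply k
      rw [h.C.bar_sub, mul_pow, mul_pow, ← map_pow, ← map_pow, h.C.bar_bar, h.C.bar_bar, map_sub, map_mul, map_mul,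
        hinv, hinv]
      ring
    · exact hc
  obtain ⟨k, hk, hkx⟩ := hmem
  have : g = k := by
    apply act_ext
    intro x
    rw [hg, hkx, ← h.tr, h.smul']
    congr 1
    rw [← algebraMap_smul K, smul_smul, map_mul, h.C.tr_sum, Finset.mul_sum, Finset.sum_mul]
    congr 1
    apply Finset.sum_congr rfl
    intro ρ _
    rw [map_mul]; ring
  rw [this]
  exact hk

theorem exists_between {v₁ v : Fin n → F} (hv₁0 : v₁ ≠ 0) (hv₁ : h.H v₁ v₁ = 0) (hv0 : v ≠ 0) :
    ∃ u, h.H u u = 0 ∧ h.H v₁ u ≠ 0 ∧ h.H v u ≠ 0 := by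
  obtain ⟨v', hv'1, hv'2⟩ := h.partner hv₁0 hv₁
  have hp : h.HP v₁ v' := ⟨hv₁, hv'1, hv'2⟩
  by_cases h1 : h.H v v' = 0
  · obtain ⟨y, hy1, hy2⟩ := hp.exists_iso hv0
    by_cases h2 : h.H v₁ y = 0
    · obtain ⟨ε, hε0, hε⟩ := h.C.exists_eps
      obtain ⟨x, hx0, hx⟩ : ∃ x : K, x ≠ 0 ∧ (x * h.H v' y) ^ Q = -(x * h.H v' y) := by
        by_cases h3 : h.H v' y = 0
        · exact ⟨1, one_ne_zero, by rw [h3, mul_zero, h.C.bar_zero, neg_zero]⟩
        · refine ⟨algebraMap F K ε / h.H v' y, div_ne_zero (by simpa using hε0) h3, ?_⟩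
          rw [div_mul_cancel₀ _ h3, h.C.bar_alg, hε, map_neg]
      refine ⟨y + x • v', ?_, ?_, ?_⟩
      · rw [h.add, h.add', h.add', h.smul, h.smul, h.smul', h.smul', hy1, hv'2, ← h.symm v' y]
        rw [mul_pow] at hx
        linear_combination hx
      · rw [h.add', h.smul', h2, hv'1, zero_add, mul_one]
        exact pow_ne_zero _ hx0
      · rw [h.add', h.smul', h1, mul_zero, add_zero]
        exact hy2
    · exact ⟨y, hy1, h2, hy2⟩
  · exact ⟨v', hv'2, by rw [hv'1]; exact one_ne_zero, h1⟩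

/-- moving centre lines -/
theorem xt_move {M : Subgroup (SU n F q)} (hM : ∀ g : SU n F q, IsK K g → g ∈ M)
    {v₁ v : Fin n → F} (hv₁ : h.H v₁ v₁ = 0) (hv : h.H v v = 0) (hvv : h.H v₁ v ≠ 0)
    (hx : ∀ y : K, y • v₁ ∈ XT M) (y : K) : y • v ∈ XT M := by
  obtain ⟨ε, hε0, hε⟩ := h.C.exists_eps
  have hE0 : algebraMap F K ε ≠ 0 := by simpa using hε0
  have hEQ : (algebraMap F K ε) ^ Q = - algebraMap F K ε := by rw [h.C.bar_alg, hε, map_neg]
  obtain ⟨E, hEe⟩ : ∃ E, E = algebraMap F K ε := ⟨_, rfl⟩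
  rw [← hEe] at hE0 hEQ
  obtain ⟨γ, hγ⟩ : ∃ γ, γ = h.H v₁ v := ⟨_, rfl⟩
  have hγ' : h.H v v₁ = γ ^ Q := by rw [hγ, h.symm]
  rw [← hγ] at hvv
  have hw : h.H (v + (E / γ) • v₁) (v + (E / γ) • v₁) = 0 := by
    rw [h.add, h.add', h.add', h.smul, h.smul, h.smul', h.smul', hv, hv₁, hγ', ← hγ, div_pow, hEQ]
    have : γ ^ Q ≠ 0 := pow_ne_zero _ hvv
    field_simp
    ring
  obtain ⟨t, htK, ht⟩ := h.exists_tv hw (l := -E⁻¹) (by rw [h.C.bar_neg, inv_pow, hEQ]; rw [inv_neg])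
  have h1 : act t ((-(y * E / γ)) • v₁) = y • v := by
    rw [htK, ht, h.add', h.smul', hv₁, ← hγ]
    have h2 : (1 : K) - E⁻¹ * γ * (E / γ) = 0 := by field_simp; ring
    have h3 : (-(y * E / γ)) * (-E⁻¹ * γ) = y := by field_simp
    have h4 : (-(y * E / γ)) • v₁ + (y • v + (y * (E / γ)) • v₁) = y • v := by
      rw [mul_div_assoc]; module
    rw [← h4]
    rw [smul_add, smul_smul, smul_add, smul_smul, mul_zero, add_zero, h3]
  rw [← h1]
  exact xt_conj (hx _) (hM t htK)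

theorem top_of_iso {M : Subgroup (SU n F q)} (hM : ∀ g : SU n F q, IsK K g → g ∈ M) (hn : 2 ≤ n)
    (h32 : ¬ (n = 3 ∧ q = 2)) {v₁ : Fin n → F} (hv₁0 : v₁ ≠ 0) (hv₁ : h.H v₁ v₁ = 0)
    (hx : ∀ y : K, y • v₁ ∈ XT M) : M = ⊤ := by
  have := h.C.fd
  obtain ⟨v', hv'1, hv'2⟩ := h.partner hv₁0 hv₁
  have hp : h.HP v₁ v' := ⟨hv₁, hv'1, hv'2⟩
  have h1 : ∀ v : Fin n → F, h.H v v = 0 → v ∈ XT M := by
    intro v hv
    by_cases hv0 : v = 0
    · rw [hv0]; exact xt_zero M h.C.hF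
    obtain ⟨u, hu, hu1, hu2⟩ := exists_between hv₁0 hv₁ hv0
    have h2 := xt_move hM hv₁ hu hu1 hx
    have h3 := xt_move hM hu hv (fun h0 => hu2 (h.eq_zero_comm.1 h0)) h2 1
    rwa [one_smul] at h3
  apply top_of_xt h.C.hF hn h32
  intro x hxx
  obtain ⟨d, hd⟩ : ∃ d, d = h.H x x := ⟨_, rfl⟩
  by_cases hd0 : d = 0
  · exact h1 x (by rw [← hd, hd0])
  have hdr : d ^ Q = d := by rw [hd, h.self_real]
  -- `s` with `s + s̄ = d` and non-zero trace
  obtain ⟨s, hs, hst⟩ : ∃ s : K, s + s ^ Q = d ∧ Algebra.trace F K s ≠ 0 := by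
    obtain ⟨s₀, hs₀⟩ := exists_trace_eq (F := K) (q := Q) h.C.hK hdr
    by_cases h2 : Algebra.trace F K s₀ = 0
    · obtain ⟨ε, hε0, hε⟩ := h.C.exists_eps
      obtain ⟨ι, hι, e, he⟩ := h.C.exists_basis
      obtain ⟨i, hi⟩ : ∃ i, Algebra.trace F K (e i) ≠ 0 := by
        by_contra hcon
        push Not at hcon
        have : (1 : K) = 0 := by
          apply h.C.tr_nd
          intro l
          rw [mul_one, ← e.sum_repr l, map_sum]
          apply Finset.sum_eq_zero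
          intro i _
          rw [map_smul, hcon, smul_zero]
        exact one_ne_zero this
      refine ⟨s₀ + algebraMap F K ε * e i, ?_, ?_⟩
      · rw [h.C.bar_add, mul_pow, h.C.bar_alg, hε, he, map_neg]
        linear_combination hs₀
      · rw [map_add, h2, zero_add, h.C.tr_smul]
        exact mul_ne_zero hε0 hi
    · exact ⟨s₀, hs₀, h2⟩
  have hx0 : x ≠ 0 := by
    rintro rfl
    rw [h.zero_left] at hd
    exact hd0 hd
  obtain ⟨y₀, hy₀, hxy₀⟩ := hp.exists_iso hx0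
  obtain ⟨y, hy⟩ : ∃ y, y = ((s / h.H x y₀) ^ Q) • y₀ := ⟨_, rfl⟩
  have hyy : h.H y y = 0 := by rw [hy]; exact self_smul hy₀ _ _
  have hxy : h.H x y = s := by rw [hy, h.smul', h.C.bar_bar, div_mul_cancel₀ _ hxy₀]
  have hyx : h.H y x = s ^ Q := by rw [← h.symm, hxy]
  have hzz : h.H (x - y) (x - y) = 0 := by
    rw [h.sub_left, h.sub_right, h.sub_right, hyy, hxy, hyx, ← hd]
    linear_combination -hs
  have hyz : hermForm n F q y (x - y) ≠ 0 := by
    rw [← h.tr, h.sub_right, hyy, sub_zero, hyx, h.C.tr_bar]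
    exact pow_ne_zero _ hst
  have h5 := xt_pair h.C.hF (h1 y hyy) (h1 _ hzz) hyz (m := 1) (by rw [one_smul, sub_add_cancel]; exact hxx)
  rwa [one_smul, sub_add_cancel] at h5

/-- In the other case every `K`-line is mapped to a `K`-line. -/
theorem line_of_all {M : Subgroup (SU n F q)} (hM : ∀ g : SU n F q, IsK K g → g ∈ M)
    (hd : finrank K (Fin n → F) = 2 ∨ 4 ≤ finrank K (Fin n → F))
    (hall : ∀ g ∈ M, ∀ v₁ v₂ : Fin n → F, h.H v₁ v₁ = 0 → h.H v₂ v₂ = 0 →
      h.Phi g v₁ v₂ = 0 ∨ Function.Injective (h.Phi g v₁ v₂))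
    {g : SU n F q} (hg : g ∈ M) {w : Fin n → F} (hw0 : w ≠ 0) (hw : h.H w w = 0) :
    h.H (act g w) (act g w) = 0 ∧ ∀ c : K, ∃ c' : K, act g (c • w) = c' • act g w := by
  obtain ⟨b, hb0, hb⟩ := h.C.exists_zero (fun a b => h.H (act g (a • w)) (act g (b • w)))
    (fun a b c => by rw [add_smul, act_add, h.add])
    (fun c a b => by rw [mul_smul, algebraMap_smul, act_smul, h.fsmul])
    (fun a b => (h.symm _ _).symm)
    (fun a => by rw [h.tr, act_form, ← h.tr, self_smul hw, map_zero])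
  obtain ⟨v, hv⟩ : ∃ v, v = act g (b • w) := ⟨_, rfl⟩
  have hv0 : v ≠ 0 := by rw [hv]; exact act_ne_zero (smul_ne_zero hb0 hw0)
  have hvv : h.H v v = 0 := by rw [hv]; exact hb
  have hperp : ∀ c : K, h.H (act g (c • w)) v = 0 := by
    rcases hall g hg v w hvv hw with h1 | h1
    · intro c
      rw [← Phi_apply, h1, LinearMap.zero_apply]
    · exfalso
      apply hb0
      apply h1
      rw [map_zero, Phi_apply, ← hv, hvv]
  obtain ⟨v', hv'1, hv'2⟩ := h.partner hv0 hvv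
  have hp : h.HP v v' := ⟨hvv, hv'1, hv'2⟩
  have hline : ∀ c : K, ∃ c' : K, act g (c • w) = c' • v := by
    intro c
    rcases hd with hd | hd
    · refine ⟨h.H (act g (c • w)) v', ?_⟩
      have := hp.expand hd (act g (c • w))
      rw [hperp, zero_smul, add_zero] at this
      exact this
    · by_contra hcon
      push Not at hcon
      obtain ⟨u, hu⟩ : ∃ u, u = act g (c • w) := ⟨_, rfl⟩
      obtain ⟨u₁, hu₁⟩ : ∃ u₁, u₁ = u - h.H u v' • v := ⟨_, rfl⟩
      have hu₁0 : u₁ ≠ 0 := by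
        intro h0
        rw [h0] at hu₁
        exact hcon _ (by rw [← hu]; exact sub_eq_zero.1 hu₁.symm)
      have huv : h.H u v = 0 := by rw [hu]; exact hperp c
      have h1 : h.H u₁ v = 0 := by rw [hu₁, h.sub_left, h.smul, hvv, huv]; ring
      have h2 : h.H u₁ v' = 0 := by rw [hu₁, h.sub_left, h.smul, hv'1]; ring
      obtain ⟨z, z', hz, e1, e2, e3, e4⟩ := hp.exists_second hd
      obtain ⟨y, hy1, hy2, hy3, hy4⟩ := hp.exists_iso2 hz e1 e2 e3 e4 hu₁0 h1 h2
      have hy5 : h.H u y ≠ 0 := by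
        have : h.H u₁ y = h.H u y := by rw [hu₁, h.sub_left, h.smul, h.eq_zero_comm.1 hy2]; ring
        rwa [← this]
      rcases hall g hg y w hy1 hw with h3 | h3
      · apply hy5
        rw [hu, ← Phi_apply, h3, LinearMap.zero_apply]
      · apply hb0
        apply h3
        rw [map_zero, Phi_apply, ← hv]
        exact h.eq_zero_comm.1 hy2
  obtain ⟨c₀, hc₀⟩ := hline 1
  rw [one_smul] at hc₀
  have hc₀0 : c₀ ≠ 0 := by
    rintro rfl
    rw [zero_smul] at hc₀
    exact act_ne_zero hw0 hc₀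
  constructor
  · rw [hc₀]; exact self_smul hvv _ _
  · intro c
    obtain ⟨c', hc'⟩ := hline c
    refine ⟨c' / c₀, ?_⟩
    rw [hc', hc₀, smul_smul, div_mul_cancel₀ _ hc₀0]

/-- Conjugates of `K`-transvections are `K`-linear. -/
theorem conj_tv {M : Subgroup (SU n F q)} (hM : ∀ g : SU n F q, IsK K g → g ∈ M)
    (hline : ∀ g ∈ M, ∀ w : Fin n → F, w ≠ 0 → h.H w w = 0 →
      h.H (act g w) (act g w) = 0 ∧ ∀ c : K, ∃ c' : K, act g (c • w) = c' • act g w)
    {g : SU n F q} (hg : g ∈ M) {v : Fin n → F} (hv0 : v ≠ 0) (hv : h.H v v = 0) {l : K} {t : SU n F q}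
    (htM : t ∈ M) (ht : ∀ x, act t x = x + (l * h.H x v) • v) : IsK K (g * t * g⁻¹) := by
  obtain ⟨hw, hθ⟩ := hline g hg v hv0 hv
  obtain ⟨w, hwe⟩ : ∃ w, w = act g v := ⟨_, rfl⟩
  have hw0 : w ≠ 0 := by rw [hwe]; exact act_ne_zero hv0
  rw [← hwe] at hw
  choose θ hθ using hθ
  obtain ⟨ζ, hζ⟩ : ∃ ζ : (Fin n → F) → K, ∀ x, ζ x = θ (l * h.H (act g⁻¹ x) v) := ⟨_, fun x => rfl⟩
  have hact : ∀ x, act (g * t * g⁻¹) x = x + ζ x • w := by
    intro x
    rw [act_mul, act_mul, ht, act_add, act_act_inv, hθ, hζ, hwe]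
  have hsinj : ∀ a b : K, a • w = b • w → a = b := fun a b hab => smul_left_injective K hw0 hab
  have hadd : ∀ x y, ζ (x + y) = ζ x + ζ y := by
    intro x y
    apply hsinj
    have h1 := hact (x + y)
    rw [act_add, hact, hact] at h1
    rw [add_smul]
    have h2 : x + y + (ζ x • w + ζ y • w) = x + y + ζ (x + y) • w := by rw [← h1]; abel
    exact (add_left_cancel h2).symm
  have hpres : ∀ x y, Algebra.trace F K (ζ y ^ Q * h.H x w) + Algebra.trace F K (ζ x * h.H w y) = 0 := by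
    intro x y
    have h1 := act_form (g * t * g⁻¹) x y
    rw [hact, hact, hermForm_add_left, hermForm_add_right h.C.hF, hermForm_add_right h.C.hF] at h1
    have h2 : hermForm n F q (ζ x • w) (ζ y • w) = 0 := by rw [← h.tr, self_smul hw, map_zero]
    rw [h2, ← h.tr x (ζ y • w), ← h.tr (ζ x • w) y, h.smul', h.smul] at h1
    linear_combination h1
  have hzero : ∀ x, h.H x w = 0 → ζ x = 0 := by
    intro x hx
    obtain ⟨y, hy⟩ := h.exists_ne hw0
    apply h.C.tr_nd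
    intro m
    have h1 := hpres x ((m / h.H w y) ^ Q • y)
    rw [hx, mul_zero, map_zero, zero_add, h.smul', h.C.bar_bar, div_mul_cancel₀ _ hy] at h1
    rw [mul_comm]
    exact h1
  obtain ⟨w', hw'1, hw'2⟩ := h.partner hw0 hw
  have hp : h.HP w w' := ⟨hw, hw'1, hw'2⟩
  have hw'0 : w' ≠ 0 := hp.symm.ne
  have hζ1 : ∀ x, ζ x = ζ (h.H x w • w') := by
    intro x
    have h1 : x = h.H x w • w' + (x - h.H x w • w') := by abel
    conv_lhs => rw [h1]
    rw [hadd, hzero (x - h.H x w • w') (by rw [h.sub_left, h.smul, hp.v'v]; ring), add_zero]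
  have hsM : g * t * g⁻¹ ∈ M := M.mul_mem (M.mul_mem hg htM) (M.inv_mem hg)
  obtain ⟨-, hl⟩ := hline _ hsM w' hw'0 hw'2
  have hζ2 : ∀ c : K, ζ (c • w') = c * ζ w' := by
    intro c
    obtain ⟨c', hc'⟩ := hl c
    rw [hact, hact] at hc'
    have h1 := congrArg (fun z => h.H z w) hc'
    simp only [h.add, h.smul, hw, hp.v'v, mul_zero, add_zero, mul_one] at h1
    have h2 := congrArg (fun z => h.H z w') hc'
    simp only [h.add, h.smul, hw'1, hw'2, mul_zero, zero_add, mul_one] at h2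
    rw [h2, h1]
  intro k x
  rw [hact, hact, hζ1, h.smul, hζ2, hζ1 x, hζ2, smul_add, smul_smul]
  congr 2
  ring

theorem semi_of_line {M : Subgroup (SU n F q)} (hM : ∀ g : SU n F q, IsK K g → g ∈ M)
    (hd : 2 ≤ finrank K (Fin n → F))
    (hline : ∀ g ∈ M, ∀ w : Fin n → F, w ≠ 0 → h.H w w = 0 →
      h.H (act g w) (act g w) = 0 ∧ ∀ c : K, ∃ c' : K, act g (c • w) = c' • act g w)
    {g : SU n F q} (hg : g ∈ M) (κ : K) : ∃ χ : K, ∀ x, act g (χ • x) = κ • act g x := by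
  obtain ⟨th, hth⟩ := exists_pow_q_ne (F := F) h.C.hF
  obtain ⟨ε, hε0, hε⟩ := h.C.exists_eps
  obtain ⟨E, hE⟩ : ∃ E, E = algebraMap F K ε := ⟨_, rfl⟩
  have hE0 : E ≠ 0 := by rw [hE]; simpa using hε0
  have hEQ : E ^ Q = - E := by rw [hE, h.C.bar_alg, hε, map_neg]
  obtain ⟨X, hX⟩ : ∃ X : (Fin n → F) → (Fin n → F), ∀ x, X x = act g⁻¹ (κ • act g x) := ⟨_, fun x => rfl⟩
  have hXadd : ∀ x y, X (x + y) = X x + X y := by
    intro x y
    rw [hX, hX, hX, act_add, smul_add, act_add]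
  have hXsmul : ∀ (c : F) x, X (c • x) = c • X x := by
    intro c x
    rw [hX, hX, act_smul, smul_comm, act_smul]
  -- commutation with the transvections
  have hstar : ∀ v : Fin n → F, v ≠ 0 → h.H v v = 0 → ∀ l : K, l ^ Q = -l → ∀ x,
      X ((l * h.H x v) • v) = (l * h.H (X x) v) • v := by
    intro v hv0 hv l hl x
    obtain ⟨t, htK, ht⟩ := h.exists_tv hv hl
    have h1 := conj_tv hM hline hg hv0 hv (hM t htK) ht κ (act g x)
    rw [act_mul, act_mul, act_mul, act_mul, act_inv_act] at h1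
    have h2 := congrArg (act g⁻¹) h1
    rw [act_inv_act, ← hX, ← hX, ht, ht, hXadd] at h2
    exact (add_left_cancel h2).symm
  -- eigenvalues
  have heig : ∀ v : Fin n → F, v ≠ 0 → h.H v v = 0 → ∃ χ : K, ∀ x, h.H (X x) v = χ * h.H x v := by
    intro v hv0 hv
    obtain ⟨v', hv'1, hv'2⟩ := h.partner hv0 hv
    have hp : h.HP v v' := ⟨hv, hv'1, hv'2⟩
    have hsinj : ∀ a b : K, a • v = b • v → a = b := fun a b hab => smul_left_injective K hv0 hab
    obtain ⟨f, hf⟩ : ∃ f : K → K, ∀ a, f a = h.H (X (a • v')) v := ⟨_, fun a => rfl⟩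
    have hfadd : ∀ a b, f (a + b) = f a + f b := by
      intro a b
      rw [hf, hf, hf, add_smul, hXadd, h.add]
    have hfF : ∀ (c : F) a, f (algebraMap F K c * a) = algebraMap F K c * f a := by
      intro c a
      rw [hf, hf, mul_smul, algebraMap_smul, hXsmul, h.fsmul]
    have h1 : ∀ l : K, l ^ Q = -l → ∀ a, X ((l * a) • v) = (l * f a) • v := by
      intro l hl a
      have := hstar v hv0 hv l hl (a • v')
      rw [h.smul, hp.v'v, mul_one, ← hf] at this
      exact this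
    have hfr : ∀ z : K, z ^ Q = z → ∀ a, f (z * a) = z * f a := by
      intro z hz a
      have h2 := h1 (z * E) (by rw [mul_pow, hz, hEQ]; ring) a
      have h3 := h1 E hEQ (z * a)
      have h4 : z * E * a = E * (z * a) := by ring
      rw [h4, h3] at h2
      have h5 := hsinj _ _ h2
      have h6 : E * f (z * a) = E * (z * f a) := by rw [h5]; ring
      exact mul_left_cancel₀ hE0 h6
    have hf1 : ∀ k : K, f k = k * f 1 := by
      intro k
      obtain ⟨a, b, ha, hb, hk⟩ := h.C.decomp hth k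
      have h2 := hfr a ha 1
      have h3 := hfr b hb 1
      rw [mul_one] at h2 h3
      rw [hk, hfadd, hfF, h2, h3]; ring
    refine ⟨f 1, fun x => ?_⟩
    have h2 := hstar v hv0 hv E hEQ x
    rw [h1 E hEQ, hf1] at h2
    have h3 := hsinj _ _ h2
    have h4 := mul_left_cancel₀ hE0 h3
    rw [← h4]; ring
  choose! χ hχ using heig
  obtain ⟨v₀, hv₀0, hv₀⟩ := h.exists_isotropic hd
  obtain ⟨v₀', hv'1, hv'2⟩ := h.partner hv₀0 hv₀
  have hp : h.HP v₀ v₀' := ⟨hv₀, hv'1, hv'2⟩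
  have hstep : ∀ v w : Fin n → F, v ≠ 0 → w ≠ 0 → h.H v v = 0 → h.H w w = 0 → h.H w v ≠ 0 → χ v = χ w := by
    intro v w hv0 hw0 hv hw hwv
    obtain ⟨ww, hww1, hww2⟩ := h.partner hw0 hw
    -- compare `H (X w) v` in two ways: use `X (k w) = k χ w`
    have hXw : X w = χ w • w := by
      have h1 := hstar w hw0 hw E hEQ ((E⁻¹) • ww)
      have hwww : h.H ww w = 1 := by rw [← h.symm, hww1, one_pow]
      rw [hχ w hw0 hw, h.smul, hwww, mul_one, mul_inv_cancel₀ hE0, one_smul] at h1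
      rw [h1]
      congr 1
      field_simp
    have h2 := hχ v hv0 hv w
    rw [hXw, h.smul] at h2
    exact (mul_right_cancel₀ hwv h2).symm
  have hconst : ∀ v : Fin n → F, v ≠ 0 → h.H v v = 0 → χ v = χ v₀ := by
    intro v hv0 hv
    obtain ⟨u, hu, hu1, hu2⟩ := exists_between hv₀0 hv₀ hv0
    have hu0 : u ≠ 0 := by
      rintro rfl
      exact hu1 (h.zero_right _)
    rw [hstep v u hv0 hu0 hv hu (fun h0 => hu2 (h.eq_zero_comm.1 h0)), hstep u v₀ hu0 hv₀0 hu hv₀ hu1]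
  have hXx : ∀ x, X x = χ v₀ • x := by
    intro x
    by_contra hne
    obtain ⟨y, hy, hxy⟩ := hp.exists_iso (sub_ne_zero.2 hne)
    have hy0 : y ≠ 0 := by
      rintro rfl
      exact hxy (h.zero_right _)
    apply hxy
    rw [h.sub_left, h.smul, hχ y hy0 hy, hconst y hy0 hy, sub_self]
  refine ⟨χ v₀, fun x => ?_⟩
  rw [← hXx, hX, act_act_inv]

/-- The main dichotomy. -/
theorem main (h : Hm F q n Q K) {M : Subgroup (SU n F q)} (hM : ∀ g : SU n F q, IsK K g → g ∈ M)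
    (hc : Cond q (finrank F K) (finrank K (Fin n → F))) :
    (∀ g ∈ M, ∀ k : K, ∃ k' : K, ∀ x, act g (k • x) = k' • act g x) ∨ M = ⊤ := by
  have := h.C.fd
  have hd2 : 2 ≤ finrank K (Fin n → F) := by
    rcases hc with ⟨h1, -⟩ | h1 <;> omega
  have hdd : finrank K (Fin n → F) = 2 ∨ 4 ≤ finrank K (Fin n → F) := by
    rcases hc with ⟨h1, -⟩ | h1
    · exact Or.inl h1
    · exact Or.inr h1
  have hr3 : 3 ≤ finrank F K := by
    have h1 := h.C.hr.two_le
    have h2 := h.C.ho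
    rcases Nat.lt_or_ge 2 (finrank F K) with h | h
    · exact h
    · have : finrank F K = 2 := by omega
      rw [this] at h2
      exact absurd h2 (by decide)
  have hn : 6 ≤ n := by
    have h1 := Module.finrank_mul_finrank F K (Fin n → F)
    rw [Module.finrank_fin_fun] at h1
    rw [← h1]
    calc 6 = 3 * 2 := by norm_num
      _ ≤ _ := Nat.mul_le_mul hr3 hd2
  by_cases hall : ∀ g ∈ M, ∀ v₁ v₂ : Fin n → F, h.H v₁ v₁ = 0 → h.H v₂ v₂ = 0 →
      h.Phi g v₁ v₂ = 0 ∨ Function.Injective (h.Phi g v₁ v₂)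
  · left
    intro g hg k
    have hline := fun g hg w hw0 hw => line_of_all (h := h) hM hdd hall (g := g) hg (w := w) hw0 hw
    obtain ⟨χ, hχ⟩ := semi_of_line hM hd2 hline (M.inv_mem hg) k
    refine ⟨χ, fun x => ?_⟩
    have h1 := hχ (act g x)
    rw [act_inv_act] at h1
    rw [← h1, act_act_inv]
  · right
    push Not at hall
    obtain ⟨g, hg, v₁, v₂, hv₁, hv₂, h1, h2⟩ := hall
    have h3 : 1 ≤ finrank F (LinearMap.range (h.Phi g v₁ v₂)) := by
      rw [Nat.one_le_iff_ne_zero, Ne, Submodule.finrank_eq_zero, LinearMap.range_eq_bot]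
      exact h1
    have h4 : finrank F (LinearMap.range (h.Phi g v₁ v₂)) < finrank F K := by
      apply lt_of_le_of_ne (Submodule.finrank_le _)
      intro h5
      apply h2
      rw [LinearMap.injective_iff_surjective, ← LinearMap.range_eq_top]
      exact Submodule.eq_top_of_finrank_eq h5
    obtain ⟨g', hg', w₁, w₂, hw₁, hw₂, h5⟩ := exists_rank_one hM _ hg hv₁ hv₂ rfl h3 h4
    obtain ⟨a, β, hβ, ha, hn'⟩ := exists_n hM hg' hw₁ hw₂ h5
    have hw₁0 : w₁ ≠ 0 := by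
      rintro rfl
      have : LinearMap.range (h.Phi g' 0 w₂) = ⊥ := by
        rw [LinearMap.range_eq_bot]
        ext b
        rw [Phi_apply, h.zero_right, LinearMap.zero_apply]
      rw [this, finrank_bot] at h5
      exact zero_ne_one h5
    exact top_of_iso hM (by omega) (by omega) hw₁0 hw₁ (xt_of_n hM hc hw₁0 hw₁ hβ ha hn')

end Hm

end Cfsg.Agent.UCth
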