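import Mathlib
import Cfsg.Agent.UCth.Main
import Cfsg.Agent.AschCases.FieldSub
import Cfsg.Agent.UCase.Proper

set_option autoImplicit false
set_option linter.unusedSectionVars false
set_option linter.unusedVariables false
set_option linter.style.haveILetI false

/-!
Matrix version: unitary class 3 for `r < n`.
-/

namespace Cfsg.Agent.UCth

open scoped Matrix
open Module Cfsg.Agent.Uni Cfsg.Agent.USub Cfsg.Geo Cfsg.Agent.AschCases
open Cfsg.Agent.UCase (SG suHom suHom_coe suHom_mem suHom_range suHom_mulVec exists_suHom not_le_subalgebraNormalizer)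

section

variable {F : Type*} [Field F] [Fintype F] {q n Q : ℕ} {K : Type*} [Field K] [Fintype K] [Algebra F K]
  [Module K (Fin n → F)] [IsScalarTower F K (Fin n → F)]

/-- The adjoint is the `Q`-power map. -/
theorem adj_eq (C : Cf F K q Q) (hn : 0 < n)
    (hadj : ∀ k : K, ∃ k' : K, ∀ u v : Fin n → F, hermForm n F q (k • u) v = hermForm n F q u (k' • v))
    (k : K) (u v : Fin n → F) : hermForm n F q (k • u) v = hermForm n F q u (k ^ Q • v) := by
  have := C.fd
  choose β hβ using hadj
  have hV : Nontrivial (Fin n → F) := by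
    have : Nonempty (Fin n) := ⟨⟨0, hn⟩⟩
    infer_instance
  obtain ⟨w, hw⟩ := exists_ne (0 : Fin n → F)
  have huniq : ∀ a b : K, (∀ u v : Fin n → F, hermForm n F q u (a • v) = hermForm n F q u (b • v)) → a = b := by
    intro a b hab
    have h1 : (a - b) • w = 0 := by
      apply hermForm_nondeg' C.hF
      intro u
      rw [sub_smul, hermForm_sub_right C.hF, hab, sub_self]
    exact sub_eq_zero.1 ((smul_eq_zero.1 h1).resolve_right hw)
  have hadd : ∀ a b, β (a + b) = β a + β b := by
    intro a b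
    apply huniq
    intro u v
    rw [← hβ, add_smul, add_smul, hermForm_add_left, hermForm_add_right C.hF, hβ, hβ]
  have hmul : ∀ a b, β (a * b) = β a * β b := by
    intro a b
    apply huniq
    intro u v
    rw [← hβ, mul_smul, hβ, hβ, smul_smul, mul_comm]
  have hβF : ∀ c : F, β (algebraMap F K c) = algebraMap F K (c ^ q) := by
    intro c
    apply huniq
    intro u v
    rw [← hβ, algebraMap_smul, algebraMap_smul, hermForm_smul_left, hermForm_smul_right, pow_q_pow_q C.hF]
  have hββ : ∀ a, β (β a) = a := by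
    intro a
    apply huniq
    intro u v
    rw [← hβ, ← hermForm_symm C.hF v, ← hβ, hermForm_symm C.hF]
  let τ₀ : K →ₐ[F] K :=
    { toFun := fun k => β (k ^ Q)
      map_one' := by
        rw [one_pow]
        have := hβF 1
        rwa [map_one, one_pow, map_one] at this
      map_mul' := fun a b => by rw [mul_pow, hmul]
      map_zero' := by
        rw [C.bar_zero]
        have := hβF 0
        rwa [map_zero, zero_pow_q C.hF, map_zero] at this
      map_add' := fun a b => by rw [C.bar_add, hadd]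
      commutes' := fun c => by rw [C.bar_alg, hβF, pow_q_pow_q C.hF] }
  have hβpow : ∀ (a : K) (m : ℕ), 0 < m → β (a ^ m) = β a ^ m := by
    intro a m hm
    induction m with
    | zero => omega
    | succ m ih =>
      rcases Nat.eq_zero_or_pos m with h0 | h0
      · rw [h0]; simp
      · rw [pow_succ, hmul, ih h0, pow_succ]
  have hQ : 0 < Q := q_pos C.hK
  have hττ : ∀ k, τ₀ (τ₀ k) = k := by
    intro k
    change β ((β (k ^ Q)) ^ Q) = k
    rw [← hβpow _ _ hQ, hββ, C.bar_bar]
  let τ : K ≃ₐ[F] K := AlgEquiv.ofAlgHom τ₀ τ₀ (AlgHom.ext hττ) (AlgHom.ext hττ)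
  have hτ2 : τ * τ = 1 := by
    ext k
    exact hττ k
  have hτ1 : τ = 1 := by
    have h5 : τ ^ finrank F K = 1 := by
      rw [← IsGalois.card_aut_eq_finrank F K]
      exact pow_card_eq_one'
    obtain ⟨m, hm⟩ := C.ho
    rw [hm, pow_succ, pow_mul, pow_two, hτ2, one_pow, one_mul] at h5
    exact h5
  have h6 : ∀ k, β (k ^ Q) = k := fun k => DFunLike.congr_fun hτ1 k
  have h7 : β k = k ^ Q := by
    have := h6 (k ^ Q)
    rwa [C.bar_bar] at this
  rw [hβ, h7]

/-- Existence of the `K`-form. -/
theorem exists_Hm (C : Cf F K q Q)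
    (hadj : ∀ (k : K) (u v : Fin n → F), hermForm n F q (k • u) v = hermForm n F q u (k ^ Q • v)) :
    Nonempty (Hm F q n Q K) := by
  have := C.fd
  have hnd := traceForm_nondegenerate F K
  let L : (Fin n → F) → (Fin n → F) → (K →ₗ[F] F) := fun x y =>
    { toFun := fun k => hermForm n F q (k • x) y
      map_add' := fun a b => by rw [add_smul, hermForm_add_left]
      map_smul' := fun c a => by rw [smul_assoc, hermForm_smul_left]; rfl }
  obtain ⟨H, hH⟩ : ∃ H : (Fin n → F) → (Fin n → F) → K, ∀ x y k, Algebra.trace F K (H x y * k) = hermForm n F q (k • x) y := by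
    refine ⟨fun x y => ((Algebra.traceForm F K).toDual hnd).symm (L x y), fun x y k => ?_⟩
    rw [← Algebra.traceForm_apply, LinearMap.BilinForm.apply_toDual_symm_apply]
    rfl
  have huniq : ∀ a b : K, (∀ k, Algebra.trace F K (a * k) = Algebra.trace F K (b * k)) → a = b := by
    intro a b hab
    rw [← sub_eq_zero]
    apply C.tr_nd
    intro l
    rw [mul_sub, map_sub, mul_comm, hab, mul_comm, sub_self]
  refine ⟨⟨C, H, ?_, ?_, ?_, ?_⟩⟩
  · intro x y
    have := hH x y 1
    rwa [mul_one, one_smul] at this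
  · intro x y z
    apply huniq
    intro k
    rw [hH, smul_add, hermForm_add_left, add_mul, map_add, hH, hH]
  · intro k x y
    apply huniq
    intro l
    rw [hH, smul_smul]
    have : k * H x y * l = H x y * (l * k) := by ring
    rw [this, hH]
  · intro x y
    apply huniq
    intro l
    rw [hH]
    have : H x y ^ Q * l = (H x y * l ^ Q) ^ Q := by rw [mul_pow, C.bar_bar]
    rw [this, C.tr_bar, hH, hermForm_symm C.hF, hadj]

end

section

variable {F : Type*} [Field F] [Fintype F] {q n : ℕ}

theorem c3_alg (hF : Fintype.card F = q ^ 2) {K : Type*} [Field K] [Algebra F K]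
    (φ : K →ₐ[F] Matrix (Fin n) (Fin n) F)
    (hadj : ∀ k : K, ∃ k' : K, ∀ u v, hermForm n F q (φ k *ᵥ u) v = hermForm n F q u (φ k' *ᵥ v))
    (hr : (finrank F K).Prime) (ho : Odd (finrank F K)) {d : ℕ} (hd : finrank F K * d = n)
    (hc : Hm.Cond q (finrank F K) d) (M : Subgroup (SU n F q))
    (hM : ∀ g : SU n F q, (∀ k : K, ((g : Matrix.SpecialLinearGroup (Fin n) F) : Matrix (Fin n) (Fin n) F) * φ k =
      φ k * ((g : Matrix.SpecialLinearGroup (Fin n) F) : Matrix (Fin n) (Fin n) F)) → g ∈ M) :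
    (∀ g ∈ M, ∀ k : K, ∃ k' : K, ((g : Matrix.SpecialLinearGroup (Fin n) F) : Matrix (Fin n) (Fin n) F) * φ k =
      φ k' * ((g : Matrix.SpecialLinearGroup (Fin n) F) : Matrix (Fin n) (Fin n) F)) ∨ M = ⊤ := by
  classical
  letI : Module K (Fin n → F) := Module.compHom (Fin n → F)
    (((Matrix.toLinAlgEquiv' : Matrix (Fin n) (Fin n) F ≃ₐ[F] _).toAlgHom.comp φ : K →ₐ[F] _) : K →+* Module.End F (Fin n → F))
  have hsm : ∀ (k : K) (v : Fin n → F), k • v = φ k *ᵥ v := fun k v => rfl
  have htower : IsScalarTower F K (Fin n → F) := by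
    refine ⟨fun c k v => ?_⟩
    rw [hsm, hsm, map_smul, Matrix.smul_mulVec]
  have : FiniteDimensional F K := FiniteDimensional.of_finrank_pos hr.pos
  have hfinK : Finite K := Module.finite_of_finite F
  have hFK : Fintype K := Fintype.ofFinite K
  have hdim := Module.finrank_mul_finrank F K (Fin n → F)
  rw [Module.finrank_fin_fun] at hdim
  have hdK : finrank K (Fin n → F) = d := Nat.eq_of_mul_eq_mul_left hr.pos (hdim.trans hd.symm)
  have hd0 : 0 < d := by
    rcases hc with ⟨h1, -⟩ | h1 <;> omega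
  have hn : 0 < n := by rw [← hd]; exact Nat.mul_pos hr.pos hd0
  let C : Cf F K q (q ^ finrank F K) := ⟨hF, rfl, hr, ho⟩
  have hadj' := adj_eq C hn (fun k => by
    obtain ⟨k', hk'⟩ := hadj k
    exact ⟨k', fun u v => hk' u v⟩)
  obtain ⟨h⟩ := exists_Hm C hadj'
  have hmat : ∀ (A B : Matrix (Fin n) (Fin n) F), (∀ x, A *ᵥ x = B *ᵥ x) → A = B := by
    intro A B hAB
    apply Matrix.toLin'.injective
    apply LinearMap.ext
    exact hAB
  rcases Hm.main h (M := M) (fun g hg => hM g fun k => by
      apply hmat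
      intro x
      have := hg k x
      rw [hsm, hsm, act_def, act_def, Matrix.mulVec_mulVec, Matrix.mulVec_mulVec] at this
      exact this) (by rw [hdK]; exact hc) with h1 | h1
  · left
    intro g hg k
    obtain ⟨k', hk'⟩ := h1 g hg k
    refine ⟨k', hmat _ _ fun x => ?_⟩
    have := hk' x
    rw [hsm, hsm, act_def, act_def, Matrix.mulVec_mulVec, Matrix.mulVec_mulVec] at this
    exact this
  · exact Or.inr h1

theorem mem_norm_of_comm {K : Subalgebra F (Matrix (Fin n) (Fin n) F)} {g : GL (Fin n) F}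
    (hg : ∀ k ∈ K, (g : Matrix (Fin n) (Fin n) F) * k = k * (g : Matrix (Fin n) (Fin n) F)) :
    g ∈ subalgebraNormalizer K := by
  have h1 : ∀ k ∈ K, (g : Matrix (Fin n) (Fin n) F) * k * ((g⁻¹ : GL (Fin n) F) : Matrix (Fin n) (Fin n) F) = k := by
    intro k hk
    rw [hg k hk, mul_assoc, ← Units.val_mul, mul_inv_cancel, Units.val_one, mul_one]
  intro k
  constructor
  · intro hk
    rw [h1 k hk]; exact hk
  · intro hk
    have h2 := hg _ hk
    have h3 : (g : Matrix (Fin n) (Fin n) F) * k * ((g⁻¹ : GL (Fin n) F) : Matrix (Fin n) (Fin n) F) = k := by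
      have h4 : (g : Matrix (Fin n) (Fin n) F) * ((g : Matrix (Fin n) (Fin n) F) * k *
          ((g⁻¹ : GL (Fin n) F) : Matrix (Fin n) (Fin n) F)) = (g : Matrix (Fin n) (Fin n) F) * k := by
        rw [h2, mul_assoc, ← Units.val_mul, inv_mul_cancel, Units.val_one, mul_one]
      have h5 := congrArg (fun z => ((g⁻¹ : GL (Fin n) F) : Matrix (Fin n) (Fin n) F) * z) h4
      simp only [← mul_assoc] at h5
      rw [← Units.val_mul, inv_mul_cancel, Units.val_one, one_mul, one_mul] at h5
      exact h5
    rw [h3] at hk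
    exact hk

theorem mem_norm_of_semi {K : Subalgebra F (Matrix (Fin n) (Fin n) F)} {g : GL (Fin n) F}
    (hg : ∀ k ∈ K, ∃ k' ∈ K, (g : Matrix (Fin n) (Fin n) F) * k = k' * (g : Matrix (Fin n) (Fin n) F))
    (hg' : ∀ k ∈ K, ∃ k' ∈ K, ((g⁻¹ : GL (Fin n) F) : Matrix (Fin n) (Fin n) F) * k =
      k' * ((g⁻¹ : GL (Fin n) F) : Matrix (Fin n) (Fin n) F)) :
    g ∈ subalgebraNormalizer K := by
  intro k
  constructor
  · intro hk
    obtain ⟨k', hk', he⟩ := hg k hk
    rw [he, mul_assoc, ← Units.val_mul, mul_inv_cancel, Units.val_one, mul_one]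
    exact hk'
  · intro hk
    obtain ⟨k', hk', he⟩ := hg' _ hk
    have h5 : k * ((g⁻¹ : GL (Fin n) F) : Matrix (Fin n) (Fin n) F) = k' * ((g⁻¹ : GL (Fin n) F) : Matrix (Fin n) (Fin n) F) := by
      rw [← he]
      simp only [← mul_assoc]
      rw [← Units.val_mul, inv_mul_cancel, Units.val_one, one_mul]
    have h6 := congrArg (fun z => z * (g : Matrix (Fin n) (Fin n) F)) h5
    simp only [mul_assoc] at h6
    rw [← Units.val_mul, inv_mul_cancel, Units.val_one, mul_one, mul_one] at h6
    rw [h6]; exact hk'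

/-- Unitary class 3 (`r < n`): the elements of `SU_n(q)` normalising an adjoint closed field subalgebra of odd prime
degree `r` form a maximal subgroup, for `n = r d` with `d = 2` or `d ≥ 4` and `(d, r, q) ≠ (2, 3, 2)`. -/
theorem c3_maximal (hF : Fintype.card F = q ^ 2) {r d : ℕ} (hr : r.Prime) (ho : Odd r) (hd : r * d = n)
    (hc : Hm.Cond q r d) (K : Subalgebra F (Matrix (Fin n) (Fin n) F)) (hK : IsFieldSubalgebra r K)
    (hac : IsAdjointClosedFor (hermForm n F q) K) :
    IsMaximalIn (GU n F q ⊓ specialLinear (Fin n) F) (subalgebraNormalizer K ⊓ (GU n F q ⊓ specialLinear (Fin n) F)) := by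
  have hd0 : 2 ≤ d := by
    rcases hc with ⟨h1, -⟩ | h1 <;> omega
  have hn : 4 ≤ n := by
    rw [← hd]
    calc 4 = 2 * 2 := rfl
      _ ≤ _ := Nat.mul_le_mul hr.two_le hd0
  have hne : Nonempty (Fin n) := ⟨⟨0, by omega⟩⟩
  apply isMaximalIn_of_su inf_le_right
  · intro h
    exact not_le_subalgebraNormalizer hF (by omega) hr.two_le K hK (h.trans inf_le_left)
  · intro M h1 h2
    have hfr : finrank F K = r := hK.finrank_eq
    have key := @c3_alg F _ _ q n hF K (fieldOf hK) (inferInstanceAs (Algebra F K)) K.val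
      (fun k => by
        obtain ⟨k', hk', h3⟩ := hac k k.2
        exact ⟨⟨k', hk'⟩, h3⟩) (by
        have : finrank F K = r := hK.finrank_eq
        rw [this]; exact hr) (by
        have : finrank F K = r := hK.finrank_eq
        rw [this]; exact ho) d (by
        have : finrank F K = r := hK.finrank_eq
        rw [this]; exact hd) (by
        have : finrank F K = r := hK.finrank_eq
        rw [this]; exact hc) M (fun g hg => h1 (by
          rw [Subgroup.mem_comap]
          exact ⟨mem_norm_of_comm fun k hk => hg ⟨k, hk⟩, suHom_mem g⟩))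
    rcases key with h3 | h3
    · exfalso
      apply h2
      apply le_antisymm _ h1
      intro g hg
      rw [Subgroup.mem_comap]
      refine ⟨mem_norm_of_semi (fun k hk => ?_) (fun k hk => ?_), suHom_mem g⟩
      · obtain ⟨k', hk'⟩ := h3 g hg ⟨k, hk⟩
        exact ⟨k', k'.2, hk'⟩
      · obtain ⟨k', hk'⟩ := h3 g⁻¹ (M.inv_mem hg) ⟨k, hk⟩
        refine ⟨k', k'.2, ?_⟩
        rw [← map_inv]
        exact hk'
    · exact h3

end

end Cfsg.Agent.UCth
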